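import Mathlib

/-! Facts about the alternating group of degree five used for groups of Hall-Janko type. -/

set_option autoImplicit false

namespace CfsgLib.J2Type

/-- The alternating group of degree five. -/
abbrev A5 := ↥(alternatingGroup (Fin 5))

namespace A5Facts

theorem card : Nat.card A5 = 60 := by rw [Nat.card_eq_fintype_card]; decide

set_option maxRecDepth 10000 in
theorem invol_conj : ∀ a : A5, a * a = 1 → a ≠ 1 → ∀ b : A5, b * b = 1 → b ≠ 1 →
    ∃ g, g * a * g⁻¹ = b := by decide +kernel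

theorem invol_pair_five : ∀ a : A5, a * a = 1 → a ≠ 1 →
    ∃ g, (a * (g * a * g⁻¹)) ^ 5 = 1 ∧ a * (g * a * g⁻¹) ≠ 1 := by decide +kernel

theorem cent_invol : ∀ a : A5, a * a = 1 → a ≠ 1 →
    (Finset.univ.filter fun x : A5 => x * a = a * x).card = 4 ∧
      ∀ x : A5, x * a = a * x → x * x = 1 := by decide +kernel

theorem cent_five : ∀ a : A5, a ^ 5 = 1 → a ≠ 1 →
    (Finset.univ.filter fun x : A5 => x * a = a * x).card = 5 := by decide +kernel

theorem cent_three : ∀ a : A5, a ^ 3 = 1 → a ≠ 1 →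
    (Finset.univ.filter fun x : A5 => x * a = a * x).card = 3 := by decide +kernel

theorem invert_five : ∀ a : A5, a ^ 5 = 1 → a ≠ 1 →
    ∃ j : A5, j * j = 1 ∧ j ≠ 1 ∧ j * a * j⁻¹ = a⁻¹ := by decide +kernel

theorem invert_three : ∀ a : A5, a ^ 3 = 1 → a ≠ 1 →
    ∃ j : A5, j * j = 1 ∧ j ≠ 1 ∧ j * a * j⁻¹ = a⁻¹ := by decide +kernel

theorem order_four : ∀ a : A5, a ^ 4 = 1 → a * a = 1 := by decide +kernel

/-- The elements determined by a normalized four group element `w`. -/
def mates (r w : A5) : Finset A5 :=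
  Finset.univ.filter fun a : A5 => (a * a = 1 ∧ a ≠ 1) ∧
    (a * (r * a * r⁻¹) = r * a * r⁻¹ * a ∧ a * w ≠ w * a ∧ (a * w) ^ 3 = 1)

theorem card_mates : ∀ r : A5, r ^ 3 = 1 → r ≠ 1 →
    ∀ w : A5, w * w = 1 ∧ w ≠ 1 ∧ w * (r * w * r⁻¹) = r * w * r⁻¹ * w →
      (mates r w).card = 1 := by decide +kernel

/-- Seven named elements. -/
def gens (r w a : A5) : Finset A5 :=
  {1, r, r⁻¹, w, r * w * r⁻¹, w * (r * w * r⁻¹), a}

/-- An integer attached to a permutation, for cheap comparisons. -/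
def code (g : A5) : ℕ :=
  (g.1 0).val + 5 * (g.1 1).val + 25 * (g.1 2).val + 125 * (g.1 3).val

/-- The seven named elements as a list. -/
def genList (r w a : A5) : List A5 :=
  [1, r, r⁻¹, w, r * w * r⁻¹, w * (r * w * r⁻¹), a]

theorem card_codes : ∀ r : A5, r ^ 3 = 1 → r ≠ 1 →
    ∀ w : A5, w * w = 1 ∧ w ≠ 1 ∧ w * (r * w * r⁻¹) = r * w * r⁻¹ * w →
      ∀ a ∈ mates r w,
        12 < (((genList r w a).flatMap fun x =>
          ((genList r w a).take 3).map fun y => code (x * y)).dedup).length := by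
  decide +kernel

theorem card_gens : ∀ r : A5, r ^ 3 = 1 → r ≠ 1 →
    ∀ w : A5, w * w = 1 ∧ w ≠ 1 ∧ w * (r * w * r⁻¹) = r * w * r⁻¹ * w →
      ∀ a ∈ mates r w, 12 < (Finset.image₂ (· * ·) (gens r w a) (gens r w a)).card := by
  intro r h3 hr w hw a ha
  refine lt_of_lt_of_le (card_codes r h3 hr w hw a ha) ?_
  rw [← List.card_toFinset]
  refine le_trans (Finset.card_le_card ?_) (Finset.card_image_le (f := code))
  intro n hn
  simp only [List.mem_toFinset, List.mem_flatMap, List.mem_map] at hn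
  obtain ⟨x, hx, y, hy, rfl⟩ := hn
  replace hy := List.mem_of_mem_take hy
  have mem : ∀ z ∈ genList r w a, z ∈ gens r w a := by
    intro z hz; simpa [genList, gens] using hz
  exact Finset.mem_image_of_mem _ (Finset.mem_image₂_of_mem (mem x hx) (mem y hy))

end A5Facts

end CfsgLib.J2Type
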