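import Cfsg.Agent.J2Type.Fusion
import Cfsg.Agent.Eq.Def_Classical
import Cfsg.Agent.ExtraspecialTwo.MinusFour

/-!
The standing data of a group of Hall-Janko type: the two classes of involutions and the elementary
abelian group of order sixteen.
-/

set_option autoImplicit false

namespace CfsgLib.J2Type

variable {G : Type*} [Group G] [Finite G]

/-- The standing data. -/
structure Data (z u t r : G) (Q E : Subgroup G) (img : G → A5) : Prop where
  setup : Setup z Q img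
  u_mem : u ∈ noncentral z Q
  u_conj : IsConj z u
  t_sq : t * t = 1
  t_z : t * z = z * t
  t_u : t * u = u * t
  t_not : t ∉ Q
  r_z : r * z = z * r
  r_u : r * u = u * r
  r_ord : orderOf r = 3
  mem_E : ∀ x, x ∈ E ↔ x * z = z * x ∧ x * t = t * x
  card_E : Nat.card E = 16
  E_sq : ∀ x ∈ E, x * x = 1
  E_Q : ∀ x, x ∈ E → x ∈ Q → x = 1 ∨ x = z ∨ x = u ∨ x = z * u
  r_E : ∀ x ∈ E, r * x * r⁻¹ ∈ E
  outside : ∀ b, b * z = z * b → b * b = 1 → b ∉ Q → ∃ c, c * z = z * c ∧ c * t * c⁻¹ = b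
  into_C : ∀ x : G, orderOf x = 2 → ∃ g : G, g * x * g⁻¹ * z = z * (g * x * g⁻¹)
  two_part : ¬ 2 ^ 8 ∣ Nat.card G
  nc : ¬ IsConj z t

/-- The image and its kernel for the hypotheses as stated. -/
theorem exists_img {z : G} (hz : orderOf z = 2) (Q : Subgroup (Subgroup.centralizer ({z} : Set G)))
    [Q.Normal]
    (hF : Cfsg.generalizedFittingSubgroup (Subgroup.centralizer ({z} : Set G)) = Q)
    (hQ : Cfsg.IsExtraspecial 2 Q) (hcard : Nat.card Q = 2 ^ 5)
    (e : (Subgroup.centralizer ({z} : Set G)) ⧸ Q ≃*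
      Cfsg.Omega (ZMod 2) (Cfsg.quadFormMinus 1 (ZMod 2) 1 1)) :
    ∃ img : G → A5, Setup z (Q.map (Subgroup.centralizer ({z} : Set G)).subtype) img := by
  classical
  obtain ⟨iso⟩ := ExtraspecialTwo.MinusFour.nonempty_perm_equiv
  have hmap : (Cfsg.Omega (ZMod 2) (Cfsg.quadFormMinus 1 (ZMod 2) 1 1)).map
      iso.toMonoidHom = alternatingGroup (Fin 5) := by
    rw [← alternatingGroup.commutator_perm_eq (by simp), Cfsg.Omega, commutator_def,
      commutator_def, Subgroup.map_commutator, Subgroup.map_top_of_surjective _ iso.surjective]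
  let f : (Subgroup.centralizer ({z} : Set G)) ⧸ Q ≃* A5 :=
    e.trans ((iso.subgroupMap _).trans (MulEquiv.subgroupCongr hmap))
  let img : G → A5 := fun a =>
    if ha : a ∈ Subgroup.centralizer ({z} : Set G) then f (QuotientGroup.mk ⟨a, ha⟩) else 1
  have hval : ∀ a (ha : a ∈ Subgroup.centralizer ({z} : Set G)),
      img a = f (QuotientGroup.mk ⟨a, ha⟩) := fun a ha => dif_pos ha
  refine ⟨img, ?_, ?_, ?_, ?_, ?_⟩
  · refine LargeExtraspecial.setting_of_generalizedFitting hz (Subgroup.map_subtype_le _)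
      (by rw [hF]) ?_
    exact LargeExtraspecial.isExtraspecial_of_mulEquiv
      (Q.equivMapOfInjective _ (Subgroup.subtype_injective _)) hQ
  · rw [Subgroup.card_map_of_injective (Subgroup.subtype_injective _), hcard]; norm_num
  · intro a b ha hb
    rw [hval a (mem_cent_iff.2 ha), hval b (mem_cent_iff.2 hb),
      hval (a * b) (mul_mem (mem_cent_iff.2 ha) (mem_cent_iff.2 hb)), ← map_mul]
    rfl
  · intro y
    obtain ⟨c, hc⟩ := QuotientGroup.mk_surjective (f.symm y)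
    exact ⟨c, mem_cent_iff.1 c.2, by rw [hval c c.2, Subtype.coe_eta, hc, f.apply_symm_apply]⟩
  · intro a ha
    rw [hval a (mem_cent_iff.2 ha), map_eq_one_iff f f.injective, QuotientGroup.eq_one_iff]
    exact ⟨fun hq => ⟨_, hq, rfl⟩, fun ⟨x, hx, e'⟩ => by
      have : x = ⟨a, mem_cent_iff.2 ha⟩ := Subtype.ext e'
      exact this ▸ hx⟩

theorem Setup.conj {z : G} {Q : Subgroup G} {img : G → A5} (h : Setup z Q img) (g : G) :
    Setup (g * z * g⁻¹) (Q.map (MulAut.conj g).toMonoidHom) (fun a => img (g⁻¹ * a * g)) := by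
  have key : ∀ a, a * (g * z * g⁻¹) = g * z * g⁻¹ * a → g⁻¹ * a * g * z = z * (g⁻¹ * a * g) := by
    intro a ha
    calc g⁻¹ * a * g * z = g⁻¹ * (a * (g * z * g⁻¹)) * g := by group
      _ = g⁻¹ * (g * z * g⁻¹ * a) * g := by rw [ha]
      _ = _ := by group
  refine ⟨h.setting.conj g, ?_, fun a b ha hb => ?_, fun y => ?_, fun a ha => ?_⟩
  · rw [Subgroup.card_map_of_injective (f := (MulAut.conj g).toMonoidHom) (MulAut.conj g).injective,
      h.card_Q]
  · rw [← h.mul _ _ (key a ha) (key b hb)]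
    congr 1
    group
  · obtain ⟨c, hc, e⟩ := h.surj y
    refine ⟨g * c * g⁻¹, ?_, by rw [← e]; congr 1; group⟩
    calc g * c * g⁻¹ * (g * z * g⁻¹) = g * (c * z) * g⁻¹ := by group
      _ = g * (z * c) * g⁻¹ := by rw [hc]
      _ = _ := by group
  · rw [h.ker _ (key a ha), LargeExtraspecial.mem_conj_iff]

theorem Setup.exists_data {z : G} {Q : Subgroup G} {img : G → A5} (h : Setup z Q img) (g : G)
    (hg : g * z * g⁻¹ ∈ Q) (hgz : g * z * g⁻¹ ≠ z)
    (hcl : ∃ x y : G, orderOf x = 2 ∧ orderOf y = 2 ∧ ¬ IsConj x y) :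
    ∃ (u t r : G) (E : Subgroup G), Data z u t r Q E img := by
  classical
  haveI : Fact (Nat.Prime 2) := ⟨Nat.prime_two⟩
  have P : Pair z (g * z * g⁻¹) Q (Q.map (MulAut.conj g).toMonoidHom) img
      (fun a => img (g⁻¹ * a * g)) :=
    ⟨h, h.conj g, hg, LargeExtraspecial.mem_conj_of_conj_mem h.setting (by rw [h.card_Q]) g hg hgz, hgz⟩
  set u := g * z * g⁻¹ with hudef
  set U := Q.map (MulAut.conj g).toMonoidHom with hUdef
  obtain ⟨t, r, ⟨htz, htu, htt, htQ⟩, ⟨hrz, hru, hro⟩, hW, htt1, hne1⟩ := P.exists_t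
  have hWt : ∀ w ∈ Q ⊓ U, w * t = t * w := fun w hw => (P.W_central hw htz htu).symm
  have himgt : img t * img t = 1 ∧ img t ≠ 1 :=
    ⟨by rw [← h.mul _ _ htz htz, htt, h.img_one], fun e => htQ ((h.ker t htz).1 e)⟩
  have hQt : ∀ q ∈ Q, (t * q) * (t * q) = 1 → ∃ p ∈ Q, p * t * p⁻¹ = t * q := by
    have hcardW : Nat.card ↥(Q ⊓ Subgroup.centralizer ({t} : Set G)) = 4 := by
      rw [← P.card_W]
      refine congrArg (fun K : Subgroup G => Nat.card K) (le_antisymm ?_ ?_)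
      · exact fun q hq => hW q hq.1 (mem_cent_iff.1 hq.2)
      · exact fun q hq => Subgroup.mem_inf.2 ⟨hq.1, mem_cent_iff.2 (hWt q hq)⟩
    have horb := conj_orbit_card_mul Q t
    rw [hcardW, h.card_Q] at horb
    have hsub : {b : G | ∃ p ∈ Q, p * t * p⁻¹ = b} ⊆ (fun q => t * q) '' fixMod z Q t := by
      rintro b ⟨p, hp, rfl⟩
      refine ⟨t⁻¹ * (p * t * p⁻¹), ⟨?_, ?_⟩, by group⟩
      · rw [show t⁻¹ * (p * t * p⁻¹) = (t⁻¹ * p * t⁻¹⁻¹) * p⁻¹ by group]
        exact Q.mul_mem (h.conj_mem (h.comm_inv htz) hp) (Q.inv_mem hp)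
      · set q := t⁻¹ * (p * t * p⁻¹) with hq
        have hqQ : q ∈ Q := by
          rw [hq, show t⁻¹ * (p * t * p⁻¹) = (t⁻¹ * p * t⁻¹⁻¹) * p⁻¹ by group]
          exact Q.mul_mem (h.conj_mem (h.comm_inv htz) hp) (Q.inv_mem hp)
        have h2 : t * q * t⁻¹ = q⁻¹ := by
          refine eq_inv_of_mul_eq_one_left ?_
          calc t * q * t⁻¹ * q = (t * q) * (t * q) := by rw [inv_of_sq htt, mul_assoc (t * q)]
            _ = 1 := by rw [show t * q = p * t * p⁻¹ by rw [hq]; group]; exact conj_sq htt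
        rw [h2]
        rcases h.sq_cases hqQ with e | e
        · exact Or.inl (inv_of_sq e)
        · right
          refine inv_eq_of_mul_eq_one_right ?_
          rw [← mul_assoc, h.comm_Q hqQ, mul_assoc, e, h.z_sq]
    have hle := h.card_fixMod_le htz himgt.1 himgt.2
    have heq := Set.eq_of_subset_of_ncard_le hsub (by
      rw [Set.ncard_image_of_injective _ (mul_right_injective t)]; omega)
    intro q hq hsq
    have hmem : t * q ∈ (fun q => t * q) '' fixMod z Q t := by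
      refine ⟨q, ⟨hq, ?_⟩, rfl⟩
      have h2 : t * q * t⁻¹ = q⁻¹ := by
        refine eq_inv_of_mul_eq_one_left ?_
        calc t * q * t⁻¹ * q = (t * q) * (t * q) := by rw [inv_of_sq htt, mul_assoc (t * q)]
          _ = 1 := hsq
      rw [h2]
      rcases h.sq_cases hq with e | e
      · exact Or.inl (inv_of_sq e)
      · right
        refine inv_eq_of_mul_eq_one_right ?_
        rw [← mul_assoc, h.comm_Q hq, mul_assoc, e, h.z_sq]
    rw [← heq] at hmem
    exact hmem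
  have houtside : ∀ b, b * z = z * b → b * b = 1 → b ∉ Q → ∃ c, c * z = z * c ∧ c * t * c⁻¹ = b := by
    intro b hbz hbb hbQ
    obtain ⟨g0, hg0⟩ := A5Facts.invol_conj (img t) himgt.1 himgt.2 (img b)
      (by rw [← h.mul _ _ hbz hbz, hbb, h.img_one]) (fun e => hbQ ((h.ker b hbz).1 e))
    obtain ⟨c, hc, rfl⟩ := h.surj g0
    set q := t⁻¹ * (c⁻¹ * b * c) with hq
    have hcb : c⁻¹ * b * c * z = z * (c⁻¹ * b * c) := h.comm_mul (h.comm_mul (h.comm_inv hc) hbz) hc
    have hqQ : q ∈ Q := by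
      refine (h.ker q (h.comm_mul (h.comm_inv htz) hcb)).1 ?_
      rw [hq, h.mul _ _ (h.comm_inv htz) hcb, h.img_inv htz,
        h.mul _ _ (h.comm_mul (h.comm_inv hc) hbz) hc, h.mul _ _ (h.comm_inv hc) hbz, h.img_inv hc,
        ← hg0]
      group
    have htq : t * q = c⁻¹ * b * c := by rw [hq]; group
    obtain ⟨p, hp, hpe⟩ := hQt q hqQ (by
      rw [htq, show c⁻¹ * b * c * (c⁻¹ * b * c) = c⁻¹ * (b * b) * c by group, hbb]; group)
    refine ⟨c * p, h.comm_mul hc (h.comm_Q hp), ?_⟩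
    rw [show c * p * t * (c * p)⁻¹ = c * (p * t * p⁻¹) * c⁻¹ by group, hpe, htq]; group
  set E := Subgroup.centralizer ({z} : Set G) ⊓ Subgroup.centralizer ({t} : Set G) with hEdef
  have hmemE : ∀ x, x ∈ E ↔ x * z = z * x ∧ x * t = t * x := fun x => by
    simp [hEdef, mem_cent_iff]
  obtain ⟨T, hT, hTcard⟩ := h.card_sub E fun x hx => ((hmemE x).1 hx).1
  have hEQ : E ⊓ Q = Q ⊓ U := by
    ext x
    constructor
    · rintro ⟨hx, hxQ⟩; exact hW x hxQ ((hmemE x).1 hx).2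
    · intro hx
      exact ⟨(hmemE x).2 ⟨h.comm_Q hx.1, hWt x hx⟩, hx.1⟩
  rw [hEQ, P.card_W] at hTcard
  have hTc : ∀ y ∈ T, y * img t = img t * y := by
    intro y hy
    obtain ⟨x, hx, rfl⟩ := (hT y).1 hy
    obtain ⟨hxz, hxt⟩ := (hmemE x).1 hx
    rw [← h.mul _ _ hxz htz, ← h.mul _ _ htz hxz, hxt]
  obtain ⟨hc4, hcsq⟩ := A5Facts.cent_invol (img t) himgt.1 himgt.2
  have htE : t ∈ E := (hmemE t).2 ⟨htz, rfl⟩
  set t1 := r * t * r⁻¹ with ht1def
  have ht1z : t1 * z = z * t1 := h.comm_mul (h.comm_mul hrz htz) (h.comm_inv hrz)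
  have ht1E : t1 ∈ E := (hmemE t1).2 ⟨ht1z, htt1⟩
  have hT4 : Nat.card T = 4 := by
    haveI := Fintype.ofFinite ↥T
    have hle : Nat.card T ≤ 4 := by
      rw [← hc4, Nat.card_eq_fintype_card, Fintype.card_subtype]
      exact Finset.card_le_card fun y hy => by
        simp only [Finset.mem_filter, Finset.mem_univ, true_and] at hy ⊢
        exact hTc y hy
    have hd : Nat.card T ∣ 60 := A5Facts.card ▸ T.card_subgroup_dvd_card
    have h3 : 3 ≤ Nat.card T := by
      have hs : ({1, img t, img t1} : Set A5) ⊆ (T : Set A5) := by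
        intro y hy
        simp only [Set.mem_insert_iff, Set.mem_singleton_iff] at hy
        rcases hy with rfl | rfl | rfl
        · exact T.one_mem
        · exact (hT _).2 ⟨t, htE, rfl⟩
        · exact (hT _).2 ⟨t1, ht1E, rfl⟩
      have := Set.ncard_le_ncard hs
      rw [← Nat.card_coe_set_eq (T : Set A5), SetLike.coe_sort_coe, Set.ncard_insert_of_notMem,
        Set.ncard_pair hne1.symm] at this
      · omega
      · simp only [Set.mem_insert_iff, Set.mem_singleton_iff, not_or]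
        refine ⟨himgt.2.symm, fun e => htQ ?_⟩
        have h1 : t1 ∈ Q := (h.ker t1 ht1z).1 e.symm
        have h2 := h.conj_mem (h.comm_inv hrz) h1
        rwa [ht1def, show r⁻¹ * (r * t * r⁻¹) * r⁻¹⁻¹ = t by group] at h2
    have h2 : Nat.card T ≠ 3 := by
      intro e
      have hpow : (img t) ^ 3 = 1 := by
        have := pow_card_eq_one' (x := (⟨img t, (hT _).2 ⟨t, htE, rfl⟩⟩ : T))
        rw [e] at this
        exact congrArg Subtype.val this
      rw [pow_succ, pow_two, himgt.1, one_mul] at hpow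
      exact himgt.2 hpow
    omega
  rw [hT4] at hTcard
  have hlist : ∀ y ∈ T, y = 1 ∨ y = img t ∨ y = img t1 ∨ y = img t * img t1 := by
    have hs : ({1, img t, img t1, img t * img t1} : Set A5) ⊆ (T : Set A5) := by
      intro y hy
      simp only [Set.mem_insert_iff, Set.mem_singleton_iff] at hy
      rcases hy with rfl | rfl | rfl | rfl
      exacts [T.one_mem, (hT _).2 ⟨t, htE, rfl⟩, (hT _).2 ⟨t1, ht1E, rfl⟩,
        T.mul_mem ((hT _).2 ⟨t, htE, rfl⟩) ((hT _).2 ⟨t1, ht1E, rfl⟩)]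
    have ht1img : img t1 * img t1 = 1 ∧ img t1 ≠ 1 := by
      refine ⟨by rw [← h.mul _ _ ht1z ht1z, ht1def, conj_sq htt, h.img_one], fun e => htQ ?_⟩
      have h2 := h.conj_mem (h.comm_inv hrz) ((h.ker t1 ht1z).1 e)
      rwa [ht1def, show r⁻¹ * (r * t * r⁻¹) * r⁻¹⁻¹ = t by group] at h2
    have heq := Set.eq_of_subset_of_ncard_le hs (by
      rw [← Nat.card_coe_set_eq (T : Set A5), SetLike.coe_sort_coe, hT4,
        Set.ncard_insert_of_notMem, Set.ncard_insert_of_notMem, Set.ncard_pair]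
      · exact fun e => himgt.2 (mul_eq_right.1 e.symm)
      · simp only [Set.mem_insert_iff, Set.mem_singleton_iff, not_or]
        exact ⟨hne1.symm, fun e => ht1img.2 (mul_eq_left.1 e.symm)⟩
      · simp only [Set.mem_insert_iff, Set.mem_singleton_iff, not_or]
        refine ⟨himgt.2.symm, ht1img.2.symm, fun e => hne1 ?_⟩
        rw [← inv_of_sq himgt.1, eq_inv_of_mul_eq_one_right e.symm])
    intro y hy
    have : y ∈ ({1, img t, img t1, img t * img t1} : Set A5) := heq ▸ hy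
    simpa using this
  have huW : u ∈ Q ⊓ U := P.mem_W_iff.2 (Or.inr (Or.inr (Or.inl rfl)))
  have ht1u : t1 * u = u * t1 := P.right.comm_mul (P.right.comm_mul hru htu) (P.right.comm_inv hru)
  have ht1sq : t1 * t1 = 1 := conj_sq htt
  have hprodsq : t * t1 * (t * t1) = 1 := by
    calc t * t1 * (t * t1) = t * (t1 * t) * t1 := by group
      _ = (t * t) * (t1 * t1) := by rw [htt1]; group
      _ = 1 := by rw [htt, ht1sq, one_mul]
  have hE1 : ∀ x ∈ E, ∃ e, e ∈ E ∧ e * e = 1 ∧ e * u = u * e ∧ e⁻¹ * x ∈ Q ⊓ U := by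
    intro x hx
    have hxz := ((hmemE x).1 hx).1
    have fin : ∀ e, e ∈ E → e * e = 1 → e * u = u * e → img x = img e →
        ∃ e, e ∈ E ∧ e * e = 1 ∧ e * u = u * e ∧ e⁻¹ * x ∈ Q ⊓ U := fun e he hee heu himg => by
      have hez := ((hmemE e).1 he).1
      exact ⟨e, he, hee, heu, hEQ ▸ Subgroup.mem_inf.2 ⟨mul_mem (inv_mem he) hx,
        (h.ker _ (h.comm_mul (h.comm_inv hez) hxz)).1 (by
          rw [h.mul _ _ (h.comm_inv hez) hxz, h.img_inv hez, himg, inv_mul_cancel])⟩⟩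
    rcases hlist _ ((hT _).2 ⟨x, hx, rfl⟩) with e | e | e | e
    · exact fin 1 E.one_mem (one_mul 1) (by simp) (e.trans h.img_one.symm)
    · exact fin t htE htt htu e
    · exact fin t1 ht1E ht1sq ht1u e
    · exact fin (t * t1) (mul_mem htE ht1E) hprodsq (P.right.comm_mul htu ht1u)
        (e.trans (h.mul _ _ htz ht1z).symm)
  have hEsq : ∀ x ∈ E, x * x = 1 := by
    intro x hx
    obtain ⟨e, he, hee, heu, hw⟩ := hE1 x hx
    set w := e⁻¹ * x with hwdef
    have hwc : w * e = e * w := (P.W_central hw ((hmemE e).1 he).1 heu).symm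
    rw [show x = e * w by rw [hwdef]; group]
    calc e * w * (e * w) = e * (w * e) * w := by group
      _ = (e * e) * (w * w) := by rw [hwc]; group
      _ = 1 := by rw [hee, P.W_sq hw, one_mul]
  have hcomm : ∀ a ∈ E, ∀ b ∈ E, a * b = b * a := fun a ha b hb => by
    calc a * b = (a * b)⁻¹ := (inv_of_sq (hEsq _ (mul_mem ha hb))).symm
      _ = b * a := by rw [mul_inv_rev, inv_of_sq (hEsq a ha), inv_of_sq (hEsq b hb)]
  have hrE : ∀ x ∈ E, r * x * r⁻¹ ∈ E := by
    intro x hx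
    -- the centralizer of `t1` in `C(z)` is also `E`
    set E1 := Subgroup.centralizer ({z} : Set G) ⊓ Subgroup.centralizer ({t1} : Set G) with hE1def
    have hle : E ≤ E1 := fun y hy => ⟨mem_cent_iff.2 ((hmemE y).1 hy).1,
      mem_cent_iff.2 (hcomm y hy t1 ht1E)⟩
    have hcard : Nat.card E1 ≤ Nat.card E := by
      refine Nat.card_le_card_of_injective
        (fun y : ↥E1 => (⟨r⁻¹ * y * r, (hmemE _).2 ⟨h.comm_mul (h.comm_mul (h.comm_inv hrz)
          (mem_cent_iff.1 y.2.1)) hrz, ?_⟩⟩ : ↥E)) ?_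
      · have hy := mem_cent_iff.1 y.2.2
        calc r⁻¹ * (y : G) * r * t = r⁻¹ * ((y : G) * t1) * r := by rw [ht1def]; group
          _ = r⁻¹ * (t1 * y) * r := by rw [hy]
          _ = t * (r⁻¹ * y * r) := by rw [ht1def]; group
      · intro a b hab
        exact Subtype.ext (mul_left_cancel (mul_right_cancel (congrArg Subtype.val hab :)))
    rw [Subgroup.eq_of_le_of_card_ge hle hcard]
    obtain ⟨hxz, hxt⟩ := (hmemE x).1 hx
    refine Subgroup.mem_inf.2 ⟨mem_cent_iff.2 (h.comm_mul (h.comm_mul hrz hxz) (h.comm_inv hrz)),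
      mem_cent_iff.2 ?_⟩
    calc r * x * r⁻¹ * t1 = r * (x * t) * r⁻¹ := by rw [ht1def]; group
      _ = r * (t * x) * r⁻¹ := by rw [hxt]
      _ = t1 * (r * x * r⁻¹) := by rw [ht1def]; group
  -- involutions of the whole group
  obtain ⟨S⟩ : Nonempty (Sylow 2 ↥(Subgroup.centralizer ({z} : Set G))) := inferInstance
  obtain ⟨Pg, hPg⟩ := (S.isPGroup'.map (Subgroup.centralizer ({z} : Set G)).subtype).exists_le_sylow
  have hQS : ∀ q ∈ Q, q ∈ (Pg : Subgroup G) := by
    intro q hq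
    refine hPg ⟨⟨q, h.Q_le hq⟩, ?_, rfl⟩
    have hQn : (Q.subgroupOf (Subgroup.centralizer ({z} : Set G))).Normal :=
      ⟨fun n hn c => h.conj_mem (mem_cent_iff.1 c.2) hn⟩
    haveI := hQn
    refine LargeExtraspecial.normal_pSubgroup_le_sylow ?_ S (show (⟨q, h.Q_le hq⟩ :
      ↥(Subgroup.centralizer ({z} : Set G))) ∈ Q.subgroupOf _ from hq)
    exact (IsPGroup.of_card (p := 2) (n := 5) (by rw [h.card_Q]; norm_num)).comap_subtype
  have hPz : ∀ x ∈ (Pg : Subgroup G), x * z = z * x := by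
    have hne : (Pg : Subgroup G) ≠ ⊥ := fun e => h.z_ne (by simpa [e] using hQS z h.z_mem)
    haveI : Nontrivial ↥(Pg : Subgroup G) := (Subgroup.nontrivial_iff_ne_bot _).2 hne
    haveI := Pg.isPGroup'.center_nontrivial
    obtain ⟨c, hc⟩ := exists_ne (1 : Subgroup.center ↥(Pg : Subgroup G))
    have hc' : ∀ x ∈ (Pg : Subgroup G), x * ((c : ↥(Pg : Subgroup G)) : G) = (c : ↥(Pg : Subgroup G)) * x :=
      fun x hx => congrArg Subtype.val (Subgroup.mem_center_iff.1 c.2 ⟨x, hx⟩)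
    have hcz : ((c : ↥(Pg : Subgroup G)) : G) = z :=
      (h.eq_of_centralizes fun q hq => (hc' q (hQS q hq)).symm).resolve_left fun e =>
        hc (Subtype.ext (Subtype.ext e))
    intro x hx
    have := hc' x hx
    rwa [hcz] at this
  have hinto : ∀ x : G, orderOf x = 2 → ∃ g : G, g * x * g⁻¹ * z = z * (g * x * g⁻¹) := by
    intro x hx
    obtain ⟨Px, hPx⟩ := (IsPGroup.of_card (p := 2) (n := 1)
      (show Nat.card (Subgroup.zpowers x) = 2 ^ 1 by rw [Nat.card_zpowers, hx]; rfl)).exists_le_sylow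
    obtain ⟨g, hg⟩ := MulAction.exists_smul_eq G Px Pg
    refine ⟨g, hPz _ ?_⟩
    rw [← hg, Sylow.coe_subgroup_smul]
    exact ⟨x, hPx (Subgroup.mem_zpowers x), rfl⟩
  have htwo : ¬ 2 ^ 8 ∣ Nat.card G := by
    intro hd
    have h1 : (2 : ℕ) ^ 8 ∣ Nat.card (Pg : Subgroup G) := Pg.pow_dvd_card_of_pow_dvd_card hd
    have h2 : Nat.card (Pg : Subgroup G) ∣ 1920 := by
      rw [← h.card_cent]
      exact Subgroup.card_dvd_of_le fun x hx => mem_cent_iff.2 (hPz x hx)
    have := h1.trans h2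
    norm_num at this
  refine ⟨u, t, r, E, h, P.u_noncentral, isConj_iff.2 ⟨g, rfl⟩, htt, htz, htu, htQ, hrz, hru, hro,
    hmemE, ?_, hEsq, ?_, hrE, houtside, hinto, htwo, ?_⟩
  · omega
  · intro x hx hxQ
    exact P.mem_W_iff.1 (hEQ ▸ Subgroup.mem_inf.2 ⟨hx, hxQ⟩)
  · intro hzt
    have hQz : ∀ x ∈ Q, x * x = 1 → x ≠ 1 → IsConj z x := by
      intro x hx hxx hx1
      by_cases hxz : x = z
      · exact hxz ▸ IsConj.refl _
      obtain ⟨c, -, hc⟩ := h.transitive P.u_noncentral ⟨hx, hxx, hx1, hxz⟩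
      exact (isConj_iff.2 ⟨g, rfl⟩).trans (isConj_iff.2 ⟨c, hc⟩)
    have hall : ∀ x : G, orderOf x = 2 → IsConj z x := by
      intro x hx
      obtain ⟨c, hc⟩ := hinto x hx
      obtain ⟨hxx, hx1⟩ := orderOf_two_iff.1 hx
      refine IsConj.trans ?_ (isConj_iff.2 ⟨c, rfl⟩ : IsConj x (c * x * c⁻¹)).symm
      by_cases hQ' : c * x * c⁻¹ ∈ Q
      · exact hQz _ hQ' (conj_sq hxx) (conj_ne_one hx1)
      · obtain ⟨d, -, hd⟩ := houtside _ hc (conj_sq hxx) hQ'
        exact hzt.trans (isConj_iff.2 ⟨d, hd⟩)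
    obtain ⟨x, y, hx, hy, hxy⟩ := hcl
    exact hxy ((hall x hx).symm.trans (hall y hy))

end CfsgLib.J2Type
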