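import Cfsg.Agent.J2Type.Classes

/-!
The two classes of involutions, centralizers inside `C(t)` of the involutions fused with `z`, and
the number of pairs for `z` in Thompson's order formula.
-/

set_option autoImplicit false

namespace CfsgLib.J2Type

variable {G : Type*} [Group G] [Finite G]

/-- Both factors commute with an involution lying in the powers of their product. -/
theorem commute_of_mem_zpowers_mul {u v c : G} (hu : u * u = 1) (hv : v * v = 1) (hc : c * c = 1)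
    (h : c ∈ Subgroup.zpowers (u * v)) : u * c = c * u ∧ v * c = c * v := by
  obtain ⟨j, rfl⟩ := Subgroup.mem_zpowers_iff.mp h
  have hi : ((u * v) ^ j)⁻¹ = (u * v) ^ j := inv_eq_of_mul_eq_one_left hc
  have conj : ∀ w : G, w * (u * v) * w⁻¹ = (u * v)⁻¹ → w * (u * v) ^ j = (u * v) ^ j * w := by
    intro w hw
    have h1 : w * (u * v) ^ j * w⁻¹ = (u * v) ^ j := by rw [← conj_zpow, hw, inv_zpow, hi]
    exact conj_eq_self_iff.1 h1
  refine ⟨conj u ?_, conj v ?_⟩
  · rw [mul_inv_rev, inv_of_sq hu, inv_of_sq hv, ← mul_assoc, hu, one_mul]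
  · rw [mul_inv_rev, inv_of_sq hu, inv_of_sq hv, mul_assoc, mul_assoc, hv, mul_one]

theorem sq_of_isConj {a x : G} (ha : a * a = 1) (h : IsConj a x) : x * x = 1 := by
  obtain ⟨g, rfl⟩ := isConj_iff.1 h
  exact conj_sq ha

theorem ne_one_of_isConj {a x : G} (ha : a ≠ 1) (h : IsConj a x) : x ≠ 1 := by
  obtain ⟨g, rfl⟩ := isConj_iff.1 h
  exact conj_ne_one ha

namespace Data

variable {z u t r : G} {Q E : Subgroup G} {img : G → A5} (D : Data z u t r Q E img)
include D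

theorem z_ord : orderOf z = 2 := D.setup.setting.order

theorem t_ne : t ≠ 1 := fun e => D.t_not (e ▸ Q.one_mem)

theorem t_ord : orderOf t = 2 := orderOf_two_iff.2 ⟨D.t_sq, D.t_ne⟩

theorem t_E : t ∈ E := (D.mem_E t).2 ⟨D.t_z, rfl⟩

theorem z_E : z ∈ E := (D.mem_E z).2 ⟨rfl, D.t_z.symm⟩

theorem u_E : u ∈ E := (D.mem_E u).2 ⟨D.setup.comm_Q D.u_mem.1, D.t_u.symm⟩

theorem comm_E {a b : G} (ha : a ∈ E) (hb : b ∈ E) : a * b = b * a := by
  calc a * b = (a * b)⁻¹ := (inv_of_sq (D.E_sq _ (mul_mem ha hb))).symm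
    _ = b * a := by rw [mul_inv_rev, inv_of_sq (D.E_sq a ha), inv_of_sq (D.E_sq b hb)]

theorem conj_of_mem {b : G} (hb : b * b = 1) (hb1 : b ≠ 1) (hbQ : b ∈ Q) : IsConj z b := by
  by_cases hbz : b = z
  · exact hbz ▸ IsConj.refl _
  obtain ⟨c, -, hc⟩ := D.setup.transitive D.u_mem ⟨hbQ, hb, hb1, hbz⟩
  exact D.u_conj.trans (isConj_iff.2 ⟨c, hc⟩)

theorem conj_t_of_not_mem {b : G} (hbz : b * z = z * b) (hb : b * b = 1) (hbQ : b ∉ Q) :
    IsConj t b := by
  obtain ⟨c, -, hc⟩ := D.outside b hbz hb hbQ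
  exact isConj_iff.2 ⟨c, hc⟩

theorem mem_of_conj_z {b : G} (hbz : b * z = z * b) (h : IsConj z b) : b ∈ Q :=
  by_contra fun hn => D.nc (h.trans
    (D.conj_t_of_not_mem hbz (sq_of_isConj D.setup.z_sq h) hn).symm)

theorem not_mem_of_conj_t {b : G} (h : IsConj t b) : b ∉ Q := fun hQ => D.nc
  ((D.conj_of_mem (sq_of_isConj D.t_sq h) (ne_one_of_isConj D.t_ne h) hQ).trans h.symm)

theorem hall {x : G} (hx : orderOf x = 2) : IsConj z x ∨ IsConj t x := by
  obtain ⟨g, hg⟩ := D.into_C x hx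
  obtain ⟨hxx, hx1⟩ := orderOf_two_iff.1 hx
  have hback : IsConj (g * x * g⁻¹) x := (isConj_iff.2 ⟨g, rfl⟩ : IsConj x _).symm
  by_cases hQ : g * x * g⁻¹ ∈ Q
  · exact Or.inl ((D.conj_of_mem (conj_sq hxx) (conj_ne_one hx1) hQ).trans hback)
  · exact Or.inr ((D.conj_t_of_not_mem hg (conj_sq hxx) hQ).trans hback)

/-- An element of `C(t)` centralizing a conjugate of `z` in `E` lies in `E`. -/
theorem mem_E_of_comm {w x : G} (hwE : w ∈ E) (hw : IsConj z w) (hxw : x * w = w * x)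
    (hxt : x * t = t * x) : x ∈ E := by
  obtain ⟨g, hg⟩ := isConj_iff.1 hw
  set t' := g⁻¹ * t * g with ht'
  have ht'z : t' * z = z * t' := by
    calc t' * z = g⁻¹ * (t * w) * g := by rw [ht', ← hg]; group
      _ = g⁻¹ * (w * t) * g := by rw [((D.mem_E w).1 hwE).2]
      _ = z * t' := by rw [ht', ← hg]; group
  have hct : IsConj t t' := isConj_iff.2 ⟨g⁻¹, by rw [ht']; group⟩
  obtain ⟨c, hc, hce⟩ := D.outside t' ht'z (sq_of_isConj D.t_sq hct) (D.not_mem_of_conj_t hct)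
  set K := Subgroup.centralizer ({w} : Set G) ⊓ Subgroup.centralizer ({t} : Set G) with hK
  have hle : E ≤ K := fun y hy => Subgroup.mem_inf.2
    ⟨mem_cent_iff.2 (D.comm_E hy hwE), mem_cent_iff.2 ((D.mem_E y).1 hy).2⟩
  have hcard : Nat.card K ≤ Nat.card E := by
    refine Nat.card_le_card_of_injective
      (fun y : ↥K => (⟨c⁻¹ * (g⁻¹ * y * g) * c, (D.mem_E _).2 ⟨?_, ?_⟩⟩ : ↥E)) ?_
    · have hy : (y : G) * w = w * y := mem_cent_iff.1 y.2.1
      refine D.setup.comm_mul (D.setup.comm_mul (D.setup.comm_inv hc) ?_) hc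
      calc g⁻¹ * (y : G) * g * z = g⁻¹ * ((y : G) * w) * g := by rw [← hg]; group
        _ = g⁻¹ * (w * y) * g := by rw [hy]
        _ = z * (g⁻¹ * y * g) := by rw [← hg]; group
    · have hy : (y : G) * t = t * y := mem_cent_iff.1 y.2.2
      have ht2 : c⁻¹ * t' * c = t := by rw [← hce]; group
      calc c⁻¹ * (g⁻¹ * (y : G) * g) * c * t
          = c⁻¹ * (g⁻¹ * ((y : G) * t) * g) * c := by
            conv_lhs => rw [← ht2, ht']
            group
        _ = c⁻¹ * (g⁻¹ * (t * y) * g) * c := by rw [hy]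
        _ = t * (c⁻¹ * (g⁻¹ * y * g) * c) := by
            conv_rhs => rw [← ht2, ht']
            group
    · intro a b hab
      have h1 := mul_left_cancel (mul_right_cancel (congrArg Subtype.val hab :))
      exact Subtype.ext (mul_left_cancel (mul_right_cancel h1))
  rw [Subgroup.eq_of_le_of_card_ge hle hcard]
  exact Subgroup.mem_inf.2 ⟨mem_cent_iff.2 hxw, mem_cent_iff.2 hxt⟩

/-- An element of `C(t)` normalizing `E` permutes the involutions of `E ∩ Q`. -/
theorem perm {n w : G} (hn : ∀ x ∈ E, n * x * n⁻¹ ∈ E) (hwE : w ∈ E) (hwQ : w ∈ Q) (hw1 : w ≠ 1) :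
    n * w * n⁻¹ ∈ E ∧ n * w * n⁻¹ ∈ Q ∧ n * w * n⁻¹ ≠ 1 ∧ IsConj z (n * w * n⁻¹) := by
  have h1 := hn w hwE
  have hc : IsConj z (n * w * n⁻¹) :=
    (D.conj_of_mem (D.E_sq w hwE) hw1 hwQ).trans (isConj_iff.2 ⟨n, rfl⟩)
  exact ⟨h1, D.mem_of_conj_z ((D.mem_E _).1 h1).1 hc, conj_ne_one hw1, hc⟩

theorem card_outside : {b : G | b * z = z * b ∧ b * b = 1 ∧ b ∉ Q}.ncard = 120 := by
  have h1 := conj_orbit_card_mul (Subgroup.centralizer ({z} : Set G)) t
  have e : {b : G | ∃ c ∈ Subgroup.centralizer ({z} : Set G), c * t * c⁻¹ = b} =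
      {b : G | b * z = z * b ∧ b * b = 1 ∧ b ∉ Q} := by
    ext b
    constructor
    · rintro ⟨c, hc, rfl⟩
      have hcz := mem_cent_iff.1 hc
      exact ⟨D.setup.comm_mul (D.setup.comm_mul hcz D.t_z) (D.setup.comm_inv hcz), conj_sq D.t_sq,
        D.not_mem_of_conj_t (isConj_iff.2 ⟨c, rfl⟩)⟩
    · rintro ⟨hb1, hb2, hb3⟩
      obtain ⟨c, hc, hce⟩ := D.outside b hb1 hb2 hb3
      exact ⟨c, mem_cent_iff.2 hc, hce⟩
  have e2 : Subgroup.centralizer ({z} : Set G) ⊓ Subgroup.centralizer ({t} : Set G) = E := by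
    ext x; simp [D.mem_E, mem_cent_iff]
  rw [e, e2, D.setup.card_cent, D.card_E] at h1
  omega

theorem card_noncommuting {b : G} (hb : b * z = z * b ∧ b * b = 1 ∧ b ∉ Q) :
    {a | a ∈ noncentral z Q ∧ ¬ a * b = b * a}.ncard = 8 := by
  obtain ⟨c, hc, rfl⟩ := D.outside b hb.1 hb.2.1 hb.2.2
  have h2 : {a | a ∈ noncentral z Q ∧ a * (c * t * c⁻¹) = c * t * c⁻¹ * a} =
      (fun a => c * a * c⁻¹) '' {u, z * u} := by
    ext a
    constructor
    · rintro ⟨ha, hat⟩
      have ha' := D.setup.conj_noncentral (D.setup.comm_inv hc) ha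
      rw [inv_inv] at ha'
      have hE : c⁻¹ * a * c ∈ E := (D.mem_E _).2 ⟨D.setup.comm_Q ha'.1, by
        calc c⁻¹ * a * c * t = c⁻¹ * (a * (c * t * c⁻¹)) * c := by group
          _ = c⁻¹ * (c * t * c⁻¹ * a) * c := by rw [hat]
          _ = t * (c⁻¹ * a * c) := by group⟩
      refine ⟨c⁻¹ * a * c, ?_, by group⟩
      rcases D.E_Q _ hE ha'.1 with e | e | e | e
      · exact absurd e ha'.2.2.1
      · exact absurd e ha'.2.2.2
      · exact Or.inl e
      · exact Or.inr e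
    · rintro ⟨w, hw, rfl⟩
      have hwn : w ∈ noncentral z Q ∧ w * t = t * w := by
        rcases hw with rfl | rfl
        · exact ⟨D.u_mem, D.t_u.symm⟩
        · exact ⟨D.setup.zmul_noncentral D.u_mem, ((D.mem_E _).1 (mul_mem D.z_E D.u_E)).2⟩
      refine ⟨D.setup.conj_noncentral hc hwn.1, ?_⟩
      calc c * w * c⁻¹ * (c * t * c⁻¹) = c * (w * t) * c⁻¹ := by group
        _ = c * (t * w) * c⁻¹ := by rw [hwn.2]
        _ = c * t * c⁻¹ * (c * w * c⁻¹) := by group
  have hdiff : {a | a ∈ noncentral z Q ∧ ¬ a * (c * t * c⁻¹) = c * t * c⁻¹ * a} =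
      noncentral z Q \ {a | a ∈ noncentral z Q ∧ a * (c * t * c⁻¹) = c * t * c⁻¹ * a} := by
    ext a
    simp only [Set.mem_setOf_eq, Set.mem_diff]
    tauto
  rw [hdiff, Set.ncard_diff (fun a ha => ha.1) (Set.toFinite _), D.setup.card_noncentral, h2,
    Set.ncard_image_of_injective _ (fun a b e => mul_left_cancel (mul_right_cancel e)),
    Set.ncard_pair (fun e => D.setup.z_ne (mul_eq_right.1 e.symm))]

theorem pair_z_iff {a b : G} :
    (IsConj z a ∧ IsConj t b ∧ z ∈ Subgroup.zpowers (a * b)) ↔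
      ((b * z = z * b ∧ b * b = 1 ∧ b ∉ Q) ∧ a ∈ noncentral z Q ∧ ¬ a * b = b * a) := by
  have h := D.setup
  constructor
  · rintro ⟨ha, hb, hz⟩
    have haa := sq_of_isConj h.z_sq ha
    have hbb := sq_of_isConj D.t_sq hb
    have hbQ := D.not_mem_of_conj_t hb
    obtain ⟨haz, hbz⟩ := commute_of_mem_zpowers_mul haa hbb h.z_sq hz
    have haQ := D.mem_of_conj_z haz ha
    have key : a * b * (a * b) = 1 → False := fun hsq => by
      obtain ⟨k, hk⟩ := Subgroup.mem_zpowers_iff.1 hz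
      rcases Int.even_or_odd k with ⟨i, hi⟩ | ⟨i, hi⟩
      · rw [hi, ← two_mul, zpow_mul, zpow_two, hsq, one_zpow] at hk
        exact h.z_ne hk.symm
      · rw [hi, zpow_add, zpow_mul, zpow_two, hsq, one_zpow, one_mul, zpow_one] at hk
        refine hbQ ?_
        rw [show b = a⁻¹ * (a * b) by group, hk]
        exact Q.mul_mem (Q.inv_mem haQ) h.z_mem
    refine ⟨⟨hbz, hbb, hbQ⟩, ⟨haQ, haa, ne_one_of_isConj h.z_ne ha, fun e => ?_⟩, fun hab => ?_⟩
    · subst e
      refine key ?_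
      calc a * b * (a * b) = a * (b * a) * b := by group
        _ = (a * a) * (b * b) := by rw [hbz]; group
        _ = 1 := by rw [haa, hbb, one_mul]
    · refine key ?_
      calc a * b * (a * b) = a * (b * a) * b := by group
        _ = (a * a) * (b * b) := by rw [← hab]; group
        _ = 1 := by rw [haa, hbb, one_mul]
  · rintro ⟨⟨hbz, hbb, hbQ⟩, ha, hab⟩
    refine ⟨D.conj_of_mem ha.2.1 ha.2.2.1 ha.1, D.conj_t_of_not_mem hbz hbb hbQ, ?_⟩
    have ha' := h.conj_noncentral hbz ha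
    have hgQ : a * b * (a * b) ∈ Q := by
      rw [show a * b * (a * b) = a * (b * a * b) by group]
      conv in (b * a * b) => rw [show b * a * b = b * a * b⁻¹ by rw [inv_of_sq hbb]]
      exact Q.mul_mem ha.1 ha'.1
    rcases h.sq_cases hgQ with e | e
    · have hcomm : a * (b * a * b⁻¹) = b * a * b⁻¹ * a := by
        have e' : a * (b * a * b⁻¹) * (a * (b * a * b⁻¹)) = 1 := by
          rw [inv_of_sq hbb]
          calc a * (b * a * b) * (a * (b * a * b)) = a * b * (a * b) * (a * b * (a * b)) := by group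
            _ = 1 := e
        calc a * (b * a * b⁻¹) = (a * (b * a * b⁻¹))⁻¹ := (inv_of_sq e').symm
          _ = b * a * b⁻¹ * a := by rw [mul_inv_rev, inv_of_sq ha'.2.1, inv_of_sq ha.2.1]
      rcases h.eq_of_commute ha ha' hcomm with e1 | e1
      · exact absurd (conj_eq_self_iff.1 e1).symm hab
      · refine Subgroup.mem_zpowers_iff.2 ⟨2, ?_⟩
        rw [zpow_two]
        calc a * b * (a * b) = a * (b * a * b⁻¹) := by rw [inv_of_sq hbb]; group
          _ = a * (z * a) := by rw [e1]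
          _ = z * (a * a) := by rw [← mul_assoc, h.comm_Q ha.1]; group
          _ = z := by rw [ha.2.1, mul_one]
    · refine Subgroup.mem_zpowers_iff.2 ⟨2 * 2, ?_⟩
      rw [zpow_mul, zpow_two (a * b), zpow_two]
      exact e

theorem count_z :
    Nat.card {p : G × G // IsConj z p.1 ∧ IsConj t p.2 ∧ z ∈ Subgroup.zpowers (p.1 * p.2)} = 960 := by
  classical
  haveI := Fintype.ofFinite G
  let e : {p : G × G // IsConj z p.1 ∧ IsConj t p.2 ∧ z ∈ Subgroup.zpowers (p.1 * p.2)} ≃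
      Σ b : {b : G | b * z = z * b ∧ b * b = 1 ∧ b ∉ Q},
        {a : G | a ∈ noncentral z Q ∧ ¬ a * b = b * a} :=
    { toFun := fun p => ⟨⟨p.1.2, (D.pair_z_iff.1 p.2).1⟩, ⟨p.1.1, (D.pair_z_iff.1 p.2).2⟩⟩
      invFun := fun p => ⟨(p.2.1, p.1.1), D.pair_z_iff.2 ⟨p.1.2, p.2.2⟩⟩
      left_inv := fun _ => rfl
      right_inv := fun _ => rfl }
  rw [Nat.card_congr e, Nat.card_sigma, Finset.sum_congr rfl fun b _ =>
    (Nat.card_coe_set_eq _).trans (D.card_noncommuting b.2), Finset.sum_const, Finset.card_univ,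
    ← Nat.card_eq_fintype_card, Nat.card_coe_set_eq, D.card_outside]
  norm_num

end Data

end CfsgLib.J2Type
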