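import Cfsg.Agent.J2Type.Pair

/-!
The second class of involutions: an involution `t` of `C(z)` outside `Q`, and the elementary
abelian group of order sixteen `C(z) ∩ C(t)`.
-/

set_option autoImplicit false

namespace CfsgLib.J2Type

variable {G : Type*} [Group G] [Finite G]

namespace Pair

variable {z u : G} {Q U : Subgroup G} {img img' : G → A5} (P : Pair z u Q U img img')
include P

/-- The value of the pairing between a pair and the rotated second element. -/
theorem pairing_rot {r a b : G} (hrz : r * z = z * r) (hru : r * u = u * r) (hro : orderOf r = 3)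
    (ha : a ∈ Q ⊓ Subgroup.centralizer ({u} : Set G)) (haW : a ∉ Q ⊓ U)
    (hb : b ∈ U ⊓ Subgroup.centralizer ({z} : Set G)) (hbW : b ∉ Q ⊓ U)
    (hab : pairing a b = 1) : pairing a (r * b * r⁻¹) = z * u := by
  have hbW' : b ∉ U ⊓ Q := fun h => hbW ⟨h.2, h.1⟩
  have haW' : a ∉ U ⊓ Q := fun h => haW ⟨h.2, h.1⟩
  have hrr : orderOf r⁻¹ = 3 := by rw [orderOf_inv, hro]
  have hrz' := P.left.comm_inv hrz
  have hru' := P.right.comm_inv hru
  obtain ⟨hb1, hb1W, hbb1⟩ := P.symm.rot hru hrz hro hb hbW'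
  set b1 := r * b * r⁻¹ with hb1def
  set f := pairing a b1 with hf
  obtain ⟨ha1, ha1W, haa1⟩ := P.rot hrz' hru' hrr ha haW
  set a1 := r⁻¹ * a * r⁻¹⁻¹ with ha1def
  have hfa : pairing a1 b = f := by
    rw [hf, ← P.pairing_conj hrz hru ha1 hb, ha1def, hb1def]
    congr 1
    group
  have hfW := P.pairing_mem ha hb1
  have hf1 : f ≠ 1 ∧ f ≠ z := by
    obtain ⟨x, hx, hx1, hxz⟩ := P.exists_pairing_ne hb hbW
    have hv : pairing x b = 1 ∨ pairing x b = f := by
      rcases P.four_A ha haW ha1 ha1W haa1 hx with e | e | e | e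
      · exact Or.inl (P.pairing_W_left e hb)
      · refine Or.inl ?_
        rw [show x = a * (a⁻¹ * x) by group, P.pairing_mul_left ha
          (mul_mem (inv_mem ha) hx) hb, P.pairing_W_left e hb, one_mul, hab]
      · refine Or.inr ?_
        rw [show x = a1 * (a1⁻¹ * x) by group, P.pairing_mul_left ha1
          (mul_mem (inv_mem ha1) hx) hb, P.pairing_W_left e hb, one_mul, hfa]
      · refine Or.inr ?_
        rw [show x = (a * a1) * ((a * a1)⁻¹ * x) by group, P.pairing_mul_left (mul_mem ha ha1)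
          (mul_mem (inv_mem (mul_mem ha ha1)) hx) hb, P.pairing_W_left e hb, one_mul,
          P.pairing_mul_left ha ha1 hb, hab, mul_one, hfa]
    rcases hv with e | e
    · exact absurd e hx1
    · exact ⟨e ▸ hx1, e ▸ hxz⟩
  have hfu : f ≠ u := by
    obtain ⟨y, hy, hy1, hyu⟩ := P.symm.exists_pairing_ne ha haW'
    have hv : pairing a y = 1 ∨ pairing a y = f := by
      have hy' : y ∈ U ⊓ Subgroup.centralizer ({z} : Set G) := hy
      have e0 : ∀ w : G, w ∈ U ⊓ Q → pairing a w = 1 := fun w hw =>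
        P.pairing_W_right ⟨hw.2, hw.1⟩ ha
      rcases P.symm.four_A hb hbW' hb1 hb1W hbb1 hy with e | e | e | e
      · exact Or.inl (e0 _ e)
      · refine Or.inl ?_
        rw [show y = b * (b⁻¹ * y) by group, P.pairing_mul_right ha hb
          (mul_mem (inv_mem hb) hy), e0 _ e, hab, one_mul]
      · refine Or.inr ?_
        rw [show y = b1 * (b1⁻¹ * y) by group, P.pairing_mul_right ha hb1
          (mul_mem (inv_mem hb1) hy), e0 _ e, mul_one]
      · refine Or.inr ?_
        rw [show y = (b * b1) * ((b * b1)⁻¹ * y) by group, P.pairing_mul_right ha (mul_mem hb hb1)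
          (mul_mem (inv_mem (mul_mem hb hb1)) hy), e0 _ e, mul_one,
          P.pairing_mul_right ha hb hb1, hab, one_mul]
    have e1 : pairing y a = (pairing a y)⁻¹ := by unfold pairing; group
    rcases hv with e | e
    · exact absurd (by rw [e1, e, inv_one]) hy1
    · intro hh
      exact hyu (by rw [e1, e, hh, inv_of_sq P.right.z_sq])
  rcases P.mem_W_iff.1 hfW with e | e | e | e
  · exact absurd e hf1.1
  · exact absurd e hf1.2
  · exact absurd e hfu
  · exact e

theorem noncomm_A {r a : G} (hrz : r * z = z * r) (hru : r * u = u * r) (hro : orderOf r = 3)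
    (ha : a ∈ Q ⊓ Subgroup.centralizer ({u} : Set G)) (haW : a ∉ Q ⊓ U) :
    a * (r * a * r⁻¹) * a⁻¹ = z * (r * a * r⁻¹) := by
  obtain ⟨ha1, ha1W, haa1⟩ := P.rot hrz hru hro ha haW
  refine (P.left.conj_cases ha.1 ha1.1).resolve_left fun e => haa1 ?_
  have hc : a * (r * a * r⁻¹) = r * a * r⁻¹ * a := conj_eq_self_iff.1 e
  have h2 : a * (r * a * r⁻¹) * (a * (r * a * r⁻¹)) = 1 := by
    calc a * (r * a * r⁻¹) * (a * (r * a * r⁻¹))
        = a * (r * a * r⁻¹ * a) * (r * a * r⁻¹) := by group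
      _ = a * a * ((r * a * r⁻¹) * (r * a * r⁻¹)) := by rw [← hc]; group
      _ = 1 := by rw [P.sq_A ha haW, P.sq_A ha1 ha1W, P.left.z_sq]
  have hW : a * (r * a * r⁻¹) ∈ Q ⊓ U := by
    by_contra hW
    exact P.left.z_ne ((P.sq_A (mul_mem ha ha1) hW).symm.trans h2)
  rw [show a⁻¹ * (r * a * r⁻¹) = (a * a)⁻¹ * (a * (r * a * r⁻¹)) by group]
  exact mul_mem (inv_mem (P.sq_mem_W ha)) hW

/-- An involution outside `Q` whose centralizer meets `Q` in `Q ∩ U`. -/
theorem exists_t : ∃ t r : G, (t * z = z * t ∧ t * u = u * t ∧ t * t = 1 ∧ t ∉ Q) ∧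
    (r * z = z * r ∧ r * u = u * r ∧ orderOf r = 3) ∧
    (∀ q ∈ Q, q * t = t * q → q ∈ Q ⊓ U) ∧
    (r * t * r⁻¹ * t = t * (r * t * r⁻¹) ∧ img (r * t * r⁻¹) ≠ img t) := by
  obtain ⟨r, hrz, hru, hro⟩ := P.exists_three
  obtain ⟨b, hb, hbQ⟩ := SetLike.not_le_iff_exists.1 P.comm_of_B_not_le
  have hbW : b ∉ Q ⊓ U := fun h => hbQ h.1
  have hbW' : b ∉ U ⊓ Q := fun h => hbW ⟨h.2, h.1⟩
  obtain ⟨a, ha, haW, hab⟩ := P.exists_commuting hb hbW
  have hf := P.pairing_rot hrz hru hro ha haW hb hbW hab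
  obtain ⟨hb1, hb1W, hbb1⟩ := P.symm.rot hru hrz hro hb hbW'
  set b1 := r * b * r⁻¹ with hb1def
  obtain ⟨hb2, hb2W, hb12⟩ := P.symm.rot hru hrz hro hb1 hb1W
  set b2 := r * b1 * r⁻¹ with hb2def
  obtain ⟨ha1, ha1W, haa1⟩ := P.rot hrz hru hro ha haW
  set a1 := r * a * r⁻¹ with ha1def
  have hbb : b1 * b1 = u := P.symm.sq_A hb1 hb1W
  have haa : a * a = z := P.sq_A ha haW
  have hswap : ∀ {x y : G}, x ∈ Q ⊓ Subgroup.centralizer ({u} : Set G) →
      y ∈ U ⊓ Subgroup.centralizer ({z} : Set G) → y * x = pairing x y * (x * y) := by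
    intro x y hx hy
    have h1 : (pairing x y)⁻¹ = pairing x y := P.W_inv (P.pairing_mem hx hy)
    rw [← h1]; unfold pairing; group
  have hzu : z * u * (z * u) = 1 := by
    calc z * u * (z * u) = z * (u * z) * u := by group
      _ = 1 := by rw [P.uz, ← mul_assoc, P.left.z_sq, one_mul, P.right.z_sq]
  have hcent : ∀ {w x : G}, w ∈ Q ⊓ U → x * z = z * x → x * u = u * x → x * w = w * x :=
    fun hw h1 h2 => P.W_central hw h1 h2
  have sq_prod : ∀ {x y : G}, x ∈ Q ⊓ Subgroup.centralizer ({u} : Set G) →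
      y ∈ U ⊓ Subgroup.centralizer ({z} : Set G) → x * x = z → y * y = u → pairing x y = z * u →
      x * y * (x * y) = 1 := by
    intro x y hx hy hxx hyy hp
    calc x * y * (x * y) = x * (y * x) * y := by group
      _ = (x * (z * u)) * (x * y) * y := by rw [hswap hx hy, hp]; group
      _ = z * u * (x * x) * (y * y) := by
          rw [hcent (P.pairing_mem hx hy |> fun h => hp ▸ h) (P.mem_A hx).1 (P.mem_A hx).2]; group
      _ = 1 := by rw [hxx, hyy, mul_assoc (z * u), hzu]
  set t := a * b1 with ht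
  obtain ⟨haz, hau⟩ := P.mem_A ha
  obtain ⟨hb1z, hb1u⟩ := P.mem_B hb1
  have htz : t * z = z * t := P.left.comm_mul haz hb1z
  have htu : t * u = u * t := P.right.comm_mul hau hb1u
  have htt : t * t = 1 := sq_prod ha hb1 haa hbb hf
  have hb1Q : b1 ∉ Q := fun h => hb1W ⟨hb1.1, h⟩
  have htQ : t ∉ Q := fun h => hb1Q (by
    have := Q.mul_mem (Q.inv_mem ha.1) h
    rwa [ht, inv_mul_cancel_left] at this)
  have ha1b1 : pairing a1 b1 = 1 := (P.pairing_conj hrz hru ha hb).trans hab
  have himgt : img t = img b1 := by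
    rw [ht, P.left.mul _ _ haz hb1z, (P.left.ker a haz).2 ha.1, one_mul]
  obtain ⟨hi1, hi2⟩ := P.img_B hb1 (fun h => hb1W ⟨h.2, h.1⟩)
  refine ⟨t, r, ⟨htz, htu, htt, htQ⟩, ⟨hrz, hru, hro⟩, ?_, ?_⟩
  · have ha1fix : t * a1 * t⁻¹ = z * a1 := by
      have h1 : b1 * a1 * b1⁻¹ = a1 := by
        rw [hswap ha1 hb1, ha1b1]; group
      calc t * a1 * t⁻¹ = a * (b1 * a1 * b1⁻¹) * a⁻¹ := by rw [ht]; group
        _ = z * a1 := by rw [h1]; exact P.noncomm_A hrz hru hro ha haW
    have hS : ((Q ⊓ U : Subgroup G) : Set G) ∪ (fun w => a1 * w) '' ((Q ⊓ U : Subgroup G) : Set G) ⊆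
        fixMod z Q t := by
      rintro x (hx | ⟨w, hw, rfl⟩)
      · exact ⟨hx.1, Or.inl (conj_eq_self_iff.2 (P.W_central hx htz htu))⟩
      · refine ⟨Q.mul_mem ha1.1 hw.1, Or.inr ?_⟩
        calc t * (a1 * w) * t⁻¹ = (t * a1 * t⁻¹) * (t * w * t⁻¹) := by group
          _ = z * (a1 * w) := by
            rw [ha1fix, conj_eq_self_iff.2 (P.W_central hw htz htu), mul_assoc]
    have hdisj : Disjoint ((Q ⊓ U : Subgroup G) : Set G)
        ((fun w => a1 * w) '' ((Q ⊓ U : Subgroup G) : Set G)) := by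
      rw [Set.disjoint_left]
      rintro x hx ⟨w, hw, rfl⟩
      exact ha1W (by simpa using mul_mem hx (inv_mem hw))
    have hcard := Set.ncard_union_eq hdisj (Set.toFinite _) (Set.toFinite _)
    have h4 : ((Q ⊓ U : Subgroup G) : Set G).ncard = 4 := by
      rw [← Nat.card_coe_set_eq, SetLike.coe_sort_coe, P.card_W]
    rw [Set.ncard_image_of_injective _ (mul_right_injective a1), h4] at hcard
    have hle := P.left.card_fixMod_le htz (himgt ▸ hi1) (himgt ▸ hi2)
    have heq := Set.eq_of_subset_of_ncard_le hS (by omega)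
    intro q hq hqt
    have hqf : q ∈ fixMod z Q t := ⟨hq, Or.inl (conj_eq_self_iff.2 hqt.symm)⟩
    rw [← heq] at hqf
    rcases hqf with hW | ⟨w, hw, rfl⟩
    · exact hW
    · exfalso
      have h1 : t * (a1 * w) * t⁻¹ = a1 * w := conj_eq_self_iff.2 hqt.symm
      have h2 : t * (a1 * w) * t⁻¹ = z * (a1 * w) := by
        calc t * (a1 * w) * t⁻¹ = (t * a1 * t⁻¹) * (t * w * t⁻¹) := by group
          _ = z * (a1 * w) := by
            rw [ha1fix, conj_eq_self_iff.2 (P.W_central hw htz htu), mul_assoc]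
      exact P.left.z_ne (mul_eq_right.1 (h2.symm.trans h1))
  · set t1 := r * t * r⁻¹ with ht1
    have ht1eq : t1 = a1 * b2 := by rw [ht1, ht, ha1def, hb2def]; group
    have himg1 : img t1 = img b2 := by
      rw [ht1eq, P.left.mul _ _ (P.mem_A ha1).1 (P.mem_B hb2).1,
        (P.left.ker a1 (P.mem_A ha1).1).2 ha1.1, one_mul]
    constructor
    · have hab2 : pairing a b2 = z * u := by
        rcases P.symm.four_A hb hbW' hb1 hb1W hbb1 hb2 with e | e | e | e
        · exact absurd e hb2W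
        · exfalso
          have hbb2 : b⁻¹ * b2 ∉ U ⊓ Q := by
            have h2 := (P.symm.rot (P.right.comm_mul hru hru) (P.left.comm_mul hrz hrz) (by
              rw [show r * r = r⁻¹ by
                rw [eq_inv_iff_mul_eq_one]
                calc r * r * r = r ^ 3 := by rw [pow_succ, pow_two]
                  _ = 1 := by rw [← hro, pow_orderOf_eq_one],
                orderOf_inv, hro]) hb hbW').2.2
            rwa [show r * r * b * (r * r)⁻¹ = b2 by rw [hb2def, hb1def]; group] at h2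
          exact hbb2 e
        · exact absurd e hb12
        · rw [show b2 = (b * b1) * ((b * b1)⁻¹ * b2) by group, P.pairing_mul_right ha
            (mul_mem hb hb1) (mul_mem (inv_mem (mul_mem hb hb1)) hb2),
            P.pairing_W_right ⟨e.2, e.1⟩ ha, mul_one, P.pairing_mul_right ha hb hb1, hab, one_mul, hf]
      have ha1b2 : pairing a1 b2 = z * u := (P.pairing_conj hrz hru ha hb1).trans hf
      have haaW : a * a1 ∉ Q ⊓ U := fun hW => haa1 (by
        rw [show a⁻¹ * a1 = (a * a)⁻¹ * (a * a1) by group]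
        exact mul_mem (inv_mem (P.sq_mem_W ha)) hW)
      have hbbW : b1 * b2 ∉ U ⊓ Q := fun hW => hb12 (by
        rw [show b1⁻¹ * b2 = (b1 * b1)⁻¹ * (b1 * b2) by group]
        exact mul_mem (inv_mem (P.symm.sq_mem_W hb1)) hW)
      have hbA : b1 * a1 = a1 * b1 := by rw [hswap ha1 hb1, ha1b1, one_mul]
      have hp : pairing (a * a1) (b1 * b2) = z * u := by
        rw [P.pairing_mul_left ha ha1 (mul_mem hb1 hb2), P.pairing_mul_right ha hb1 hb2,
          P.pairing_mul_right ha1 hb1 hb2, ha1b1, one_mul, hf, hab2, ha1b2, hzu, mul_one]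
      have h1 := sq_prod (mul_mem ha ha1) (mul_mem hb1 hb2) (P.sq_A (mul_mem ha ha1) haaW)
        (P.symm.sq_A (mul_mem hb1 hb2) hbbW) hp
      have hprod : t * t1 = a * a1 * (b1 * b2) := by
        rw [ht, ht1eq]
        calc a * b1 * (a1 * b2) = a * (b1 * a1) * b2 := by group
          _ = _ := by rw [hbA]; group
      rw [← hprod] at h1
      have h3 : t1 * t1 = 1 := conj_sq htt
      calc t1 * t = (t * t1)⁻¹ := by rw [mul_inv_rev, inv_of_sq htt, inv_of_sq h3]
        _ = t * t1 := inv_of_sq h1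
    · rw [himg1, himgt]
      intro e
      apply hb12
      have hz2 := (P.mem_B hb2).1
      refine Subgroup.mem_inf.2 ⟨U.mul_mem (U.inv_mem hb1.1) hb2.1, (P.left.ker _ (P.left.comm_mul
        (P.left.comm_inv hb1z) hz2)).1 ?_⟩
      rw [P.left.mul _ _ (P.left.comm_inv hb1z) hz2, P.left.img_inv hb1z, e, inv_mul_cancel]

end Pair

end CfsgLib.J2Type
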