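import Cfsg.Agent.J2Type.Setup

/-!
Two linked centralizers: `u ∈ Q` and `z ∈ U`. The product of the centralizers of `u` in `Q` and of
`z` in `U` carries an elementary abelian group of order sixteen outside `Q`.
-/

set_option autoImplicit false

namespace CfsgLib.J2Type

variable {G : Type*} [Group G] [Finite G]

/-- The symmetric configuration. -/
structure Pair (z u : G) (Q U : Subgroup G) (img img' : G → A5) : Prop where
  left : Setup z Q img
  right : Setup u U img'
  u_mem : u ∈ Q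
  z_mem : z ∈ U
  ne : u ≠ z

/-- The commutator used for the pairing. -/
def pairing (a b : G) : G := a * b * a⁻¹ * b⁻¹

namespace Pair

variable {z u : G} {Q U : Subgroup G} {img img' : G → A5} (P : Pair z u Q U img img')
include P

theorem symm : Pair u z U Q img' img := ⟨P.right, P.left, P.z_mem, P.u_mem, P.ne.symm⟩

theorem uz : u * z = z * u := P.left.comm_Q P.u_mem

theorem u_noncentral : u ∈ noncentral z Q := ⟨P.u_mem, P.right.z_sq, P.right.z_ne, P.ne⟩

theorem mem_B {b : G} (hb : b ∈ U ⊓ Subgroup.centralizer ({z} : Set G)) :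
    b * z = z * b ∧ b * u = u * b :=
  ⟨mem_cent_iff.1 hb.2, P.right.comm_Q hb.1⟩

theorem mem_A {a : G} (ha : a ∈ Q ⊓ Subgroup.centralizer ({u} : Set G)) :
    a * z = z * a ∧ a * u = u * a :=
  ⟨P.left.comm_Q ha.1, mem_cent_iff.1 ha.2⟩

theorem comm_of_B_not_le : ¬ U ⊓ Subgroup.centralizer ({z} : Set G) ≤ Q := by
  intro hle
  set B := U ⊓ Subgroup.centralizer ({z} : Set G) with hB
  have hBA : B ≤ Q ⊓ Subgroup.centralizer ({u} : Set G) := fun b hb =>
    ⟨hle hb, mem_cent_iff.2 (P.mem_B hb).2⟩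
  have hcard : Nat.card B = 16 := P.right.card_cent_Q P.symm.u_noncentral
  have hsub : (B : Set G) \ {1, z} ⊆ noncentral z Q := by
    rintro b ⟨hb, hne⟩
    simp only [Set.mem_insert_iff, Set.mem_singleton_iff, not_or] at hne
    refine ⟨hle hb, ?_, hne.1, hne.2⟩
    rcases P.left.sq_cases (hle hb) with e | e
    · exact e
    rcases P.right.sq_cases hb.1 with e' | e'
    · exact e'
    · exact absurd (e'.symm.trans e) P.ne
  have h1 := Set.ncard_le_ncard hsub
  rw [P.left.card_noncentral] at h1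
  have h2 : (B : Set G).ncard ≤ ((B : Set G) \ {1, z}).ncard + ({1, z} : Set G).ncard :=
    Set.ncard_le_ncard_diff_add_ncard _ _ (Set.toFinite _)
  rw [← Nat.card_coe_set_eq, SetLike.coe_sort_coe, hcard, Set.ncard_pair P.left.z_ne.symm] at h2
  omega

theorem card_K :
    Nat.card ↥(Subgroup.centralizer ({z} : Set G) ⊓ Subgroup.centralizer ({u} : Set G)) = 192 :=
  P.left.card_stab P.u_noncentral

theorem exists_three : ∃ r, r * z = z * r ∧ r * u = u * r ∧ orderOf r = 3 := by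
  haveI : Fact (Nat.Prime 3) := ⟨Nat.prime_three⟩
  obtain ⟨r, hr⟩ := exists_prime_orderOf_dvd_card'
    (G := ↥(Subgroup.centralizer ({z} : Set G) ⊓ Subgroup.centralizer ({u} : Set G))) 3
    (by rw [P.card_K]; norm_num)
  exact ⟨r, mem_cent_iff.1 r.2.1, mem_cent_iff.1 r.2.2, by rw [Subgroup.orderOf_coe, hr]⟩

theorem img_three {r : G} (hr : r * z = z * r) (ho : orderOf r = 3) :
    img r ^ 3 = 1 ∧ img r ≠ 1 := by
  refine ⟨by rw [← P.left.img_pow hr, ← ho, pow_orderOf_eq_one, P.left.img_one], fun e => ?_⟩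
  have hq := (P.left.ker r hr).1 e
  have h4 : r ^ 3 = 1 := by rw [← ho, pow_orderOf_eq_one]
  have h5 := P.left.pow_four hq
  rw [pow_succ, h4, one_mul] at h5
  rw [h5, orderOf_one] at ho
  omega

theorem card_W : Nat.card ↥(Q ⊓ U) = 4 := by
  classical
  obtain ⟨r, hrz, hru, hro⟩ := P.exists_three
  set B := U ⊓ Subgroup.centralizer ({z} : Set G) with hB
  obtain ⟨T, hT, hcardT⟩ := P.left.card_sub B fun b hb => (P.mem_B hb).1
  have hBQ : B ⊓ Q = Q ⊓ U := by
    ext x
    exact ⟨fun hx => ⟨hx.2, hx.1.1⟩, fun hx => ⟨⟨hx.2, P.left.Q_le hx.1⟩, hx.1⟩⟩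
  rw [hBQ, show Nat.card B = 16 from P.right.card_cent_Q P.symm.u_noncentral] at hcardT
  obtain ⟨j, hj, hjT⟩ := (Nat.dvd_prime_pow Nat.prime_two).1
    (show Nat.card T ∣ 2 ^ 4 from ⟨Nat.card ↥(Q ⊓ U), by rw [mul_comm, hcardT]; norm_num⟩)
  have hTnot : ∃ y ∈ T, y ≠ 1 := by
    obtain ⟨b, hb, hbQ⟩ := SetLike.not_le_iff_exists.1 P.comm_of_B_not_le
    exact ⟨img b, (hT _).2 ⟨b, hb, rfl⟩, fun e => hbQ ((P.left.ker b (P.mem_B hb).1).1 e)⟩
  have hT60 : Nat.card T ∣ 60 := A5Facts.card ▸ T.card_subgroup_dvd_card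
  have hnorm : ∀ y ∈ T, img r * y * (img r)⁻¹ ∈ T := by
    intro y hy
    obtain ⟨b, hb, rfl⟩ := (hT y).1 hy
    refine (hT _).2 ⟨r * b * r⁻¹, ⟨P.right.conj_mem hru hb.1, mem_cent_iff.2 ?_⟩, ?_⟩
    · exact P.left.comm_mul (P.left.comm_mul hrz (P.mem_B hb).1) (P.left.comm_inv hrz)
    · exact P.left.img_conj hrz (P.mem_B hb).1
  have hj2 : j ≤ 2 := by
    by_contra hcon
    have : 8 ∣ 60 := (Nat.dvd_trans (by rw [hjT, show (8 : ℕ) = 2 ^ 3 by rfl]
                                        exact pow_dvd_pow 2 (by omega)) hT60)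
    norm_num at this
  have hj0 : j ≠ 0 := by
    rintro rfl
    obtain ⟨y, hy, hy1⟩ := hTnot
    rw [pow_zero, Subgroup.card_eq_one] at hjT
    exact hy1 (by simpa [hjT] using hy)
  have hj1 : j ≠ 1 := by
    rintro rfl
    obtain ⟨y, hy, hy1⟩ := hTnot
    have hr' := P.img_three hrz hro
    obtain ⟨p, q, -, huniv⟩ := Nat.card_eq_two_iff.1 hjT
    have hmem : ∀ x ∈ T, x = 1 ∨ x = y := by
      intro x hx
      have h1 : ∀ s : ↥T, s = p ∨ s = q := fun s => by
        have : s ∈ ({p, q} : Set ↥T) := huniv ▸ Set.mem_univ s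
        simpa using this
      rcases h1 ⟨x, hx⟩ with e1 | e1 <;> rcases h1 ⟨y, hy⟩ with e2 | e2 <;> rcases h1 1 with e3 | e3
      all_goals first
        | exact Or.inr (congrArg Subtype.val (e1.trans e2.symm))
        | exact Or.inl (congrArg Subtype.val (e1.trans e3.symm))
        | exact absurd (congrArg Subtype.val (e2.trans e3.symm)) hy1
    have hc : img r * y * (img r)⁻¹ = y :=
      (hmem _ (hnorm y hy)).resolve_left (conj_ne_one hy1)
    have h4 : ({1, img r, img r * img r, y} : Finset A5) ⊆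
        Finset.univ.filter fun x : A5 => x * img r = img r * x := by
      intro x hx
      simp only [Finset.mem_insert, Finset.mem_singleton] at hx
      simp only [Finset.mem_filter, Finset.mem_univ, true_and]
      rcases hx with rfl | rfl | rfl | rfl
      · simp
      · rfl
      · exact mul_assoc _ _ _
      · exact (conj_eq_self_iff.1 hc).symm
    have h5 := Finset.card_le_card h4
    rw [A5Facts.cent_three _ hr'.1 hr'.2] at h5
    have hyy : y * y = 1 := by
      rcases hmem _ (T.mul_mem hy hy) with e | e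
      · exact e
      · exact absurd (mul_eq_left.1 e) hy1
    have d1 : img r * img r ≠ 1 := fun e => hr'.2 (by
      rw [← hr'.1, pow_succ, pow_two, e, one_mul])
    have d2 : y ≠ img r := fun e => d1 (by rw [← e]; exact hyy)
    have d3 : y ≠ img r * img r := fun e => hr'.2 (by
      calc img r = (img r * img r) * (img r * img r) * (img r ^ 3)⁻¹ := by group
        _ = 1 := by rw [← e, hyy, hr'.1]; simp)
    rw [Finset.card_insert_of_notMem, Finset.card_insert_of_notMem,
      Finset.card_insert_of_notMem, Finset.card_singleton] at h5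
    · omega
    · simpa using d3.symm
    · simp only [Finset.mem_insert, Finset.mem_singleton, not_or]
      exact ⟨fun e => hr'.2 (mul_eq_left.1 e.symm), d2.symm⟩
    · simp only [Finset.mem_insert, Finset.mem_singleton, not_or]
      exact ⟨hr'.2.symm, d1.symm, hy1.symm⟩
  obtain rfl : j = 2 := by omega
  rw [hjT] at hcardT
  omega

theorem mem_W_iff {x : G} : x ∈ Q ⊓ U ↔ x = 1 ∨ x = z ∨ x = u ∨ x = z * u := by
  have hsub : ({1, z, u, z * u} : Set G) ⊆ ((Q ⊓ U : Subgroup G) : Set G) := by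
    intro y hy
    simp only [Set.mem_insert_iff, Set.mem_singleton_iff] at hy
    rcases hy with rfl | rfl | rfl | rfl
    · exact one_mem _
    · exact ⟨P.left.z_mem, P.z_mem⟩
    · exact ⟨P.u_mem, P.right.z_mem⟩
    · exact mul_mem (show z ∈ Q ⊓ U from ⟨P.left.z_mem, P.z_mem⟩) ⟨P.u_mem, P.right.z_mem⟩
  have h4 : ({1, z, u, z * u} : Set G).ncard = 4 := by
    rw [Set.ncard_insert_of_notMem, Set.ncard_insert_of_notMem, Set.ncard_pair]
    · exact fun e => P.left.z_ne (mul_eq_right.1 e.symm)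
    · simp only [Set.mem_insert_iff, Set.mem_singleton_iff, not_or]
      exact ⟨P.ne.symm, fun e => P.right.z_ne (mul_eq_left.1 e.symm)⟩
    · simp only [Set.mem_insert_iff, Set.mem_singleton_iff, not_or]
      exact ⟨P.left.z_ne.symm, P.right.z_ne.symm, fun e => P.ne (by
        rw [← inv_of_sq P.left.z_sq, eq_inv_of_mul_eq_one_right e.symm])⟩
  have e := Set.eq_of_subset_of_ncard_le hsub (by
    rw [h4, ← Nat.card_coe_set_eq, SetLike.coe_sort_coe, P.card_W])
  rw [← SetLike.mem_coe, ← e]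
  simp

theorem W_central {w : G} (hw : w ∈ Q ⊓ U) {x : G} (hz : x * z = z * x) (hu : x * u = u * x) :
    x * w = w * x := by
  rcases P.mem_W_iff.1 hw with rfl | rfl | rfl | rfl
  · simp
  · exact hz
  · exact hu
  · rw [← mul_assoc, hz, mul_assoc, hu, mul_assoc]

theorem W_sq {w : G} (hw : w ∈ Q ⊓ U) : w * w = 1 := by
  rcases P.left.sq_cases hw.1 with e | e
  · exact e
  rcases P.right.sq_cases hw.2 with e' | e'
  · exact e'
  · exact absurd (e'.symm.trans e) P.ne

theorem W_inv {w : G} (hw : w ∈ Q ⊓ U) : w⁻¹ = w := inv_of_sq (P.W_sq hw)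

theorem sq_A {a : G} (ha : a ∈ Q ⊓ Subgroup.centralizer ({u} : Set G)) (haW : a ∉ Q ⊓ U) :
    a * a = z := by
  refine (P.left.sq_cases ha.1).resolve_left fun e => haW (P.mem_W_iff.2 ?_)
  by_cases h1 : a = 1
  · exact Or.inl h1
  by_cases h2 : a = z
  · exact Or.inr (Or.inl h2)
  rcases P.left.eq_of_commute P.u_noncentral ⟨ha.1, e, h1, h2⟩ (mem_cent_iff.1 ha.2).symm with e' | e'
  · exact Or.inr (Or.inr (Or.inl e'))
  · exact Or.inr (Or.inr (Or.inr e'))

theorem sq_mem_W {a : G} (ha : a ∈ Q ⊓ Subgroup.centralizer ({u} : Set G)) : a * a ∈ Q ⊓ U := by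
  rcases P.left.sq_cases ha.1 with e | e <;> rw [e]
  · exact one_mem _
  · exact ⟨P.left.z_mem, P.z_mem⟩

theorem fixed_W {r : G} (hrz : r * z = z * r) (hru : r * u = u * r) (hro : orderOf r = 3) {a : G}
    (ha : a ∈ Q ⊓ Subgroup.centralizer ({u} : Set G)) (hc : r * a = a * r) : a ∈ Q ⊓ U := by
  haveI : Fact (Nat.Prime 3) := ⟨Nat.prime_three⟩
  set A := Q ⊓ Subgroup.centralizer ({u} : Set G) with hA
  have hcardA : Nat.card A = 16 := P.left.card_cent_Q P.u_noncentral
  set F := A ⊓ Subgroup.centralizer ({r} : Set G) with hF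
  have hmod := card_cent_modEq (k := 1) (p := 3) (g := r) (by rw [hro]; rfl) A fun x hx =>
    ⟨P.left.conj_mem hrz hx.1, mem_cent_iff.2 ((Commute.mul_left (Commute.mul_left
      (show Commute r u from hru) (show Commute x u from (P.mem_A hx).2))
      (Commute.inv_left (show Commute r u from hru))).eq)⟩
  rw [hcardA, ← hF] at hmod
  have hW : Q ⊓ U ≤ F := fun w hw =>
    ⟨⟨hw.1, mem_cent_iff.2 (P.W_central hw P.uz rfl).symm⟩,
      mem_cent_iff.2 (P.W_central hw hrz hru).symm⟩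
  have hd : Nat.card F ∣ 2 ^ 4 := by
    rw [show (2 : ℕ) ^ 4 = Nat.card A by rw [hcardA]; rfl]
    exact Subgroup.card_dvd_of_le inf_le_left
  obtain ⟨i, hi, he⟩ := (Nat.dvd_prime_pow Nat.prime_two).1 hd
  have h4 := Subgroup.card_le_of_le hW
  rw [P.card_W, he] at h4
  rw [he] at hmod
  have hi4 : i = 2 ∨ i = 4 := by interval_cases i <;> simp_all [Nat.ModEq]
  rcases hi4 with rfl | rfl
  · have e := Subgroup.eq_of_le_of_card_ge hW (by rw [he, P.card_W]; rfl)
    exact e ▸ (⟨ha, mem_cent_iff.2 hc.symm⟩ : a ∈ F)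
  exfalso
  have hmod2 := card_cent_modEq (k := 1) (p := 3) (g := r) (by rw [hro]; rfl) Q fun x hx =>
    P.left.conj_mem hrz hx
  rw [P.left.card_Q] at hmod2
  obtain ⟨i, hi', he'⟩ := (Nat.dvd_prime_pow Nat.prime_two).1 (P.left.card_fixed_dvd r)
  have h16 : Nat.card F ≤ Nat.card ↥(Q ⊓ Subgroup.centralizer ({r} : Set G)) :=
    Subgroup.card_le_of_le fun x hx => ⟨hx.1.1, hx.2⟩
  rw [he, he'] at h16
  rw [he'] at hmod2
  have hi5 : i = 5 := by interval_cases i <;> simp_all [Nat.ModEq]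
  refine P.left.not_centralizes ?_ (P.left.centralizes_of_card (by rw [he', hi5]; rfl))
  intro e
  have := orderOf_dvd_of_pow_eq_one (show r ^ 2 = 1 by rw [sq, e])
  rw [hro] at this
  norm_num at this

theorem rot {r : G} (hrz : r * z = z * r) (hru : r * u = u * r) (hro : orderOf r = 3) {a : G}
    (ha : a ∈ Q ⊓ Subgroup.centralizer ({u} : Set G)) (haW : a ∉ Q ⊓ U) :
    r * a * r⁻¹ ∈ Q ⊓ Subgroup.centralizer ({u} : Set G) ∧ r * a * r⁻¹ ∉ Q ⊓ U ∧
      a⁻¹ * (r * a * r⁻¹) ∉ Q ⊓ U := by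
  refine ⟨⟨P.left.conj_mem hrz ha.1, mem_cent_iff.2 ((Commute.mul_left (Commute.mul_left
    (show Commute r u from hru) (show Commute a u from (P.mem_A ha).2))
    (Commute.inv_left (show Commute r u from hru))).eq)⟩, fun hW => haW ?_, fun hW => haW ?_⟩
  · have e : a = r * a * r⁻¹ := by
      calc a = r⁻¹ * (r * a * r⁻¹ * r) := by group
        _ = r⁻¹ * (r * (r * a * r⁻¹)) := by rw [P.W_central hW hrz hru]
        _ = _ := by group
    rwa [← e] at hW
  · refine P.fixed_W hrz hru hro ha ?_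
    have hr3 : r ^ 3 = 1 := by rw [← hro, pow_orderOf_eq_one]
    set w := a⁻¹ * (r * a * r⁻¹) with hw
    have h1 : r * a * r⁻¹ = a * w := by rw [hw]; group
    have h2 : r * w * r⁻¹ = w := conj_eq_self_iff.2 (P.W_central hW hrz hru)
    have h3 : r * r * a * (r * r)⁻¹ = a := by
      calc r * r * a * (r * r)⁻¹ = r * (r * a * r⁻¹) * r⁻¹ := by group
        _ = r * (a * w) * r⁻¹ := by rw [h1]
        _ = (r * a * r⁻¹) * (r * w * r⁻¹) := by group
        _ = a := by rw [h1, h2, mul_assoc, P.W_sq hW, mul_one]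
    have h4 : Commute (r * r) a := conj_eq_self_iff.1 h3
    have h5 := h4.pow_left 2
    rwa [show (r * r) ^ 2 = r by
      calc (r * r) ^ 2 = r ^ 3 * r := by simp only [pow_succ, pow_zero, one_mul, mul_assoc]
        _ = r := by rw [hr3, one_mul]] at h5

theorem four_A {a a' : G} (ha : a ∈ Q ⊓ Subgroup.centralizer ({u} : Set G)) (haW : a ∉ Q ⊓ U)
    (ha' : a' ∈ Q ⊓ Subgroup.centralizer ({u} : Set G)) (haW' : a' ∉ Q ⊓ U)
    (hne : a⁻¹ * a' ∉ Q ⊓ U) {x : G} (hx : x ∈ Q ⊓ Subgroup.centralizer ({u} : Set G)) :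
    x ∈ Q ⊓ U ∨ a⁻¹ * x ∈ Q ⊓ U ∨ a'⁻¹ * x ∈ Q ⊓ U ∨ (a * a')⁻¹ * x ∈ Q ⊓ U :=
  mem_four (A := Q ⊓ Subgroup.centralizer ({u} : Set G)) (W := Q ⊓ U) (fun w hw => Subgroup.mem_inf.2 ⟨hw.1, mem_cent_iff.2 (P.W_central hw P.uz rfl).symm⟩)
    (by rw [P.left.card_cent_Q P.u_noncentral, P.card_W]) (fun y hy => P.sq_mem_W hy)
    (fun y hy w hw => by rwa [conj_eq_self_iff.2 (P.W_central hw (P.mem_A hy).1 (P.mem_A hy).2)])
    ha haW ha' haW' hne hx

theorem pairing_mem {a b : G} (ha : a ∈ Q ⊓ Subgroup.centralizer ({u} : Set G))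
    (hb : b ∈ U ⊓ Subgroup.centralizer ({z} : Set G)) : pairing a b ∈ Q ⊓ U := by
  refine ⟨?_, U.mul_mem (P.right.conj_mem (P.mem_A ha).2 hb.1) (U.inv_mem hb.1)⟩
  rw [show pairing a b = a * (b * a⁻¹ * b⁻¹) by unfold pairing; group]
  exact Q.mul_mem ha.1 (P.left.conj_mem (P.mem_B hb).1 (Q.inv_mem ha.1))

theorem pairing_mul_left {a a' b : G} (ha : a ∈ Q ⊓ Subgroup.centralizer ({u} : Set G))
    (ha' : a' ∈ Q ⊓ Subgroup.centralizer ({u} : Set G))
    (hb : b ∈ U ⊓ Subgroup.centralizer ({z} : Set G)) :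
    pairing (a * a') b = pairing a' b * pairing a b := by
  have h1 := conj_eq_self_iff.2
    (P.W_central (P.pairing_mem ha' hb) (P.mem_A ha).1 (P.mem_A ha).2)
  calc pairing (a * a') b = (a * pairing a' b * a⁻¹) * pairing a b := by unfold pairing; group
    _ = _ := by rw [h1]

theorem pairing_mul_right {a b b' : G} (ha : a ∈ Q ⊓ Subgroup.centralizer ({u} : Set G))
    (hb : b ∈ U ⊓ Subgroup.centralizer ({z} : Set G))
    (hb' : b' ∈ U ⊓ Subgroup.centralizer ({z} : Set G)) :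
    pairing a (b * b') = pairing a b * pairing a b' := by
  have h1 := conj_eq_self_iff.2
    (P.W_central (P.pairing_mem ha hb') (P.mem_B hb).1 (P.mem_B hb).2)
  calc pairing a (b * b') = pairing a b * (b * pairing a b' * b⁻¹) := by unfold pairing; group
    _ = _ := by rw [h1]

theorem pairing_W_left {w b : G} (hw : w ∈ Q ⊓ U)
    (hb : b ∈ U ⊓ Subgroup.centralizer ({z} : Set G)) : pairing w b = 1 := by
  unfold pairing
  rw [← P.W_central hw (P.mem_B hb).1 (P.mem_B hb).2]; group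

theorem pairing_W_right {a w : G} (hw : w ∈ Q ⊓ U)
    (ha : a ∈ Q ⊓ Subgroup.centralizer ({u} : Set G)) : pairing a w = 1 := by
  unfold pairing
  rw [P.W_central hw (P.mem_A ha).1 (P.mem_A ha).2]; group

theorem pairing_conj {r a b : G} (hrz : r * z = z * r) (hru : r * u = u * r)
    (ha : a ∈ Q ⊓ Subgroup.centralizer ({u} : Set G))
    (hb : b ∈ U ⊓ Subgroup.centralizer ({z} : Set G)) :
    pairing (r * a * r⁻¹) (r * b * r⁻¹) = pairing a b := by
  calc pairing (r * a * r⁻¹) (r * b * r⁻¹) = r * pairing a b * r⁻¹ := by unfold pairing; group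
    _ = _ := conj_eq_self_iff.2 (P.W_central (P.pairing_mem ha hb) hrz hru)

theorem img_B {b : G} (hb : b ∈ U ⊓ Subgroup.centralizer ({z} : Set G)) (hbW : b ∉ Q ⊓ U) :
    img b * img b = 1 ∧ img b ≠ 1 := by
  refine ⟨?_, fun e => hbW ⟨(P.left.ker b (P.mem_B hb).1).1 e, hb.1⟩⟩
  rw [← P.left.mul _ _ (P.mem_B hb).1 (P.mem_B hb).1]
  refine (P.left.ker _ (P.left.comm_mul (P.mem_B hb).1 (P.mem_B hb).1)).2 ?_
  rcases P.right.sq_cases hb.1 with e | e <;> rw [e]
  · exact Q.one_mem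
  · exact P.u_mem

theorem exists_pairing_ne {b : G} (hb : b ∈ U ⊓ Subgroup.centralizer ({z} : Set G))
    (hbW : b ∉ Q ⊓ U) :
    ∃ a ∈ Q ⊓ Subgroup.centralizer ({u} : Set G), pairing a b ≠ 1 ∧ pairing a b ≠ z := by
  by_contra hcon
  push Not at hcon
  have hbz := (P.mem_B hb).1
  obtain ⟨hi1, hi2⟩ := P.img_B hb hbW
  have hsub : ((Q ⊓ Subgroup.centralizer ({u} : Set G) : Subgroup G) : Set G) ⊆ fixMod z Q b := by
    intro a ha
    refine ⟨ha.1, ?_⟩
    have e : b * a * b⁻¹ = (pairing a b)⁻¹ * a := by unfold pairing; group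
    rw [e]
    by_cases h1 : pairing a b = 1
    · exact Or.inl (by rw [h1, inv_one, one_mul])
    · exact Or.inr (by rw [hcon a ha h1, inv_of_sq P.left.z_sq])
  have h1 := Set.ncard_le_ncard hsub
  rw [← Nat.card_coe_set_eq, SetLike.coe_sort_coe, P.left.card_cent_Q P.u_noncentral] at h1
  have h2 := P.left.card_fixMod_le hbz hi1 hi2
  omega

/-- Every element of `U` centralizing `z` outside `Q` commutes with some element of `Q`. -/
theorem exists_commuting {b : G} (hb : b ∈ U ⊓ Subgroup.centralizer ({z} : Set G))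
    (hbW : b ∉ Q ⊓ U) :
    ∃ a ∈ Q ⊓ Subgroup.centralizer ({u} : Set G), a ∉ Q ⊓ U ∧ pairing a b = 1 := by
  obtain ⟨hbz, hbu⟩ := P.mem_B hb
  obtain ⟨q, hq, hqu⟩ := P.left.exists_swap P.u_mem P.right.z_ne P.ne
  have hqz := P.left.comm_Q hq
  set c := q * b * q⁻¹ with hc
  have hcz : c * z = z * c := P.left.comm_mul (P.left.comm_mul hqz hbz) (P.left.comm_inv hqz)
  have hcu : c * u = u * c := by
    have h1 : c * (q * u * q⁻¹) = q * u * q⁻¹ * c := by
      rw [hc]
      calc q * b * q⁻¹ * (q * u * q⁻¹) = q * (b * u) * q⁻¹ := by group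
        _ = q * (u * b) * q⁻¹ := by rw [hbu]
        _ = _ := by group
    rw [hqu, ← mul_assoc, hcz, mul_assoc z u c, mul_assoc z c u] at h1
    exact mul_left_cancel h1
  have hbb : b * b = u := P.symm.sq_A hb fun hh => hbW ⟨hh.2, hh.1⟩
  have hcc : c * c = z * u := by
    rw [hc, ← hqu, show q * b * q⁻¹ * (q * b * q⁻¹) = q * (b * b) * q⁻¹ by group, hbb]
  set a := c * b⁻¹ with ha
  have haA : a ∈ Q ⊓ Subgroup.centralizer ({u} : Set G) := by
    refine ⟨?_, mem_cent_iff.2 ((Commute.mul_left (show Commute c u from hcu)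
      (Commute.inv_left (show Commute b u from hbu))).eq)⟩
    rw [ha, hc, show q * b * q⁻¹ * b⁻¹ = q * (b * q⁻¹ * b⁻¹) by group]
    exact Q.mul_mem hq (P.left.conj_mem hbz (Q.inv_mem hq))
  have hab : c = a * b := by rw [ha]; group
  have key : c * c = pairing b a * (a * a) * (b * b) := by
    have h1 : a * pairing b a = pairing b a * a :=
      P.W_central (show pairing b a ∈ Q ⊓ U from
        ⟨Q.mul_mem (P.left.conj_mem hbz haA.1) (Q.inv_mem haA.1), by
          rw [show pairing b a = b * (a * b⁻¹ * a⁻¹) by unfold pairing; group]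
          exact U.mul_mem hb.1 (P.right.conj_mem (P.mem_A haA).2 (U.inv_mem hb.1))⟩)
        (P.mem_A haA).1 (P.mem_A haA).2
    rw [hab]
    calc a * b * (a * b) = a * (pairing b a) * (a * b * b) := by unfold pairing; group
      _ = _ := by rw [h1]; group
  have haW : a ∉ Q ⊓ U := by
    intro hW
    have h1 : c * c = u := by
      rw [hab]
      calc a * b * (a * b) = a * (b * a) * b := by group
        _ = a * a * (b * b) := by rw [P.W_central hW hbz hbu]; group
        _ = u := by rw [P.W_sq hW, one_mul, hbb]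
    rw [hcc] at h1
    exact P.left.z_ne (mul_eq_right.1 h1)
  refine ⟨a, haA, haW, ?_⟩
  rw [hcc, P.sq_A haA haW, hbb, mul_assoc] at key
  rw [show pairing a b = (pairing b a)⁻¹ by unfold pairing; group, mul_eq_right.1 key.symm, inv_one]

end Pair

end CfsgLib.J2Type
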