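import Cfsg.Agent.J2Type.Util
import Cfsg.Agent.J2Type.Alt5

/-!
An automorphism of the alternating group of degree five fixing a four group and an element of order
three normalizing it is trivial.
-/

set_option autoImplicit false

namespace CfsgLib.J2Type

theorem eq_self_of_fixed {X : Type*} [Group X] (e : X ≃* A5) (φ : X ≃* X) {r w : X}
    (hr3 : r ^ 3 = 1) (hr1 : r ≠ 1) (hww : w * w = 1) (hw1 : w ≠ 1)
    (hc : w * (r * w * r⁻¹) = r * w * r⁻¹ * w) (hr : φ r = r) (hw : φ w = w) : ∀ x, φ x = x := by
  classical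
  set R := e r with hR
  set Wt := e w with hW
  set ψ : A5 ≃* A5 := e.symm.trans (φ.trans e) with hψ
  have hψR : ψ R = R := by simp [hψ, hR, hr]
  have hψW : ψ Wt = Wt := by simp [hψ, hW, hw]
  have hR3 : R ^ 3 = 1 := by rw [hR, ← map_pow, hr3, map_one]
  have hR1 : R ≠ 1 := fun h => hr1 (e.injective (h.trans e.map_one.symm))
  have hWW : Wt * Wt = 1 ∧ Wt ≠ 1 ∧ Wt * (R * Wt * R⁻¹) = R * Wt * R⁻¹ * Wt := by
    refine ⟨by rw [hW, ← map_mul, hww, map_one],
      fun h => hw1 (e.injective (h.trans e.map_one.symm)), ?_⟩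
    have := congrArg e hc
    simpa only [map_mul, map_inv] using this
  obtain ⟨a, ha⟩ := Finset.card_eq_one.1 (A5Facts.card_mates R hR3 hR1 Wt hWW)
  have hamem : a ∈ A5Facts.mates R Wt := by rw [ha]; exact Finset.mem_singleton_self a
  have hψa : ψ a = a := by
    have h1 : ψ a ∈ A5Facts.mates R Wt := by
      simp only [A5Facts.mates, Finset.mem_filter, Finset.mem_univ, true_and] at hamem ⊢
      obtain ⟨⟨h1, h2⟩, h3, h4, h5⟩ := hamem
      refine ⟨⟨by rw [← map_mul, h1, map_one], fun h => h2 (ψ.injective (h.trans ψ.map_one.symm))⟩,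
        ?_, fun h => h4 (ψ.injective (by rw [map_mul, map_mul, hψW]; exact h)), ?_⟩
      · have := congrArg ψ h3
        simpa only [map_mul, map_inv, hψR] using this
      · have := congrArg ψ h5
        simpa only [map_mul, map_pow, map_one, hψW] using this
    rw [ha, Finset.mem_singleton] at h1
    exact h1
  let D : Subgroup A5 :=
    { carrier := {x | ψ x = x}
      one_mem' := ψ.map_one
      mul_mem' := fun {x y} hx hy => show ψ (x * y) = x * y by
        rw [map_mul, show ψ x = x from hx, show ψ y = y from hy]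
      inv_mem' := fun {x} hx => show ψ x⁻¹ = x⁻¹ by rw [map_inv, show ψ x = x from hx] }
  have hgens : ∀ x ∈ A5Facts.gens R Wt a, x ∈ D := by
    intro x hx
    simp only [A5Facts.gens, Finset.mem_insert, Finset.mem_singleton] at hx
    rcases hx with rfl | rfl | rfl | rfl | rfl | rfl | rfl
    · exact D.one_mem
    · exact hψR
    · exact D.inv_mem hψR
    · exact hψW
    · exact D.mul_mem (D.mul_mem hψR hψW) (D.inv_mem hψR)
    · exact D.mul_mem hψW (D.mul_mem (D.mul_mem hψR hψW) (D.inv_mem hψR))
    · exact hψa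
  have hRord : orderOf R = 3 := orderOf_eq_prime hR3 hR1
  have h12 : 12 < Nat.card D := by
    haveI := Fintype.ofFinite ↥D
    rw [Nat.card_eq_fintype_card, Fintype.card_subtype]
    refine lt_of_lt_of_le (A5Facts.card_gens R hR3 hR1 Wt hWW a hamem) (Finset.card_le_card ?_)
    intro x hx
    obtain ⟨p, hp, q, hq, rfl⟩ := Finset.mem_image₂.1 hx
    simp only [Finset.mem_filter, Finset.mem_univ, true_and]
    exact D.mul_mem (hgens p hp) (hgens q hq)
  have h3 : 3 ∣ Nat.card D := hRord ▸ Subgroup.orderOf_dvd_natCard D hψR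
  have h4 : 4 ∣ Nat.card D := by
    let V : Finset A5 := {1, Wt, R * Wt * R⁻¹, Wt * (R * Wt * R⁻¹)}
    set W' := R * Wt * R⁻¹ with hW'
    have hW'W' : W' * W' = 1 := conj_sq hWW.1
    have hW'1 : W' ≠ 1 := conj_ne_one hWW.2.1
    have hne : Wt ≠ W' := by
      intro h
      have hcm : R * Wt = Wt * R := conj_eq_self_iff.1 h.symm
      have hmem : ({1, R, R * R, Wt} : Finset A5) ⊆
          Finset.univ.filter fun x : A5 => x * R = R * x := by
        intro x hx
        simp only [Finset.mem_insert, Finset.mem_singleton] at hx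
        simp only [Finset.mem_filter, Finset.mem_univ, true_and]
        rcases hx with rfl | rfl | rfl | rfl
        · simp
        · rfl
        · exact mul_assoc _ _ _
        · exact hcm.symm
      have h5 := Finset.card_le_card hmem
      rw [A5Facts.cent_three R hR3 hR1] at h5
      have d : ∀ x, x ^ 3 = 1 → x ≠ 1 → x ≠ Wt := fun x hx hx1 hxe => by
        subst hxe
        rw [pow_succ, pow_two, hWW.1, one_mul] at hx
        exact hx1 hx
      have hRR : R * R ≠ 1 := fun h' => hR1 (by rw [← hR3, pow_succ, pow_two, h', one_mul])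
      have hRR3 : (R * R) ^ 3 = 1 := by rw [← pow_two, ← pow_mul, mul_comm, pow_mul, hR3, one_pow]
      rw [Finset.card_insert_of_notMem, Finset.card_insert_of_notMem,
        Finset.card_insert_of_notMem, Finset.card_singleton] at h5
      · omega
      · simpa using d _ hRR3 hRR
      · simp only [Finset.mem_insert, Finset.mem_singleton, not_or]
        exact ⟨fun h' => hR1 (mul_eq_left.1 h'.symm), d R hR3 hR1⟩
      · simp only [Finset.mem_insert, Finset.mem_singleton, not_or]
        exact ⟨hR1.symm, hRR.symm, hWW.2.1.symm⟩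
    let K : Subgroup A5 :=
      { carrier := {x | x = 1 ∨ x = Wt ∨ x = W' ∨ x = Wt * W'}
        one_mem' := Or.inl rfl
        mul_mem' := fun {x y} hx hy => by
          have h1 := hWW.1
          have h2 := hW'W'
          have h3 := hWW.2.2
          have e1 : W' * Wt = Wt * W' := h3.symm
          have e2 : Wt * (Wt * W') = W' := by rw [← mul_assoc, h1, one_mul]
          have e3 : W' * (Wt * W') = Wt := by rw [← mul_assoc, e1, mul_assoc, h2, mul_one]
          have e4 : Wt * W' * Wt = W' := by rw [mul_assoc, e1, e2]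
          have e5 : Wt * W' * W' = Wt := by rw [mul_assoc, h2, mul_one]
          have e6 : Wt * W' * (Wt * W') = 1 := by rw [mul_assoc, e3, h1]
          rcases hx with rfl | rfl | rfl | rfl <;> rcases hy with rfl | rfl | rfl | rfl <;>
            simp [h1, h2, e1, e2, e3, e4, e5, e6]
        inv_mem' := fun {x} hx => by
          rcases hx with rfl | rfl | rfl | rfl
          · exact Or.inl inv_one
          · exact Or.inr (Or.inl (inv_of_sq hWW.1))
          · exact Or.inr (Or.inr (Or.inl (inv_of_sq hW'W')))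
          · refine Or.inr (Or.inr (Or.inr ?_))
            rw [mul_inv_rev, inv_of_sq hW'W', inv_of_sq hWW.1, hWW.2.2] }
    have hK4 : Nat.card K = 4 := by
      rw [← SetLike.coe_sort_coe, Nat.card_coe_set_eq]
      show Set.ncard {x | x = 1 ∨ x = Wt ∨ x = W' ∨ x = Wt * W'} = 4
      rw [show {x | x = 1 ∨ x = Wt ∨ x = W' ∨ x = Wt * W'} = ({1, Wt, W', Wt * W'} : Set A5) from rfl,
        Set.ncard_insert_of_notMem, Set.ncard_insert_of_notMem, Set.ncard_pair]
      · exact fun h => hWW.2.1 (mul_eq_right.1 h.symm)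
      · simp only [Set.mem_insert_iff, Set.mem_singleton_iff, not_or]
        exact ⟨hne, fun h => hW'1 (mul_eq_left.1 h.symm)⟩
      · simp only [Set.mem_insert_iff, Set.mem_singleton_iff, not_or]
        refine ⟨hWW.2.1.symm, hW'1.symm, fun h => hne ?_⟩
        rw [eq_inv_of_mul_eq_one_right h.symm, inv_of_sq hWW.1]
    rw [← hK4]
    refine Subgroup.card_dvd_of_le fun x hx => ?_
    have hW'D : W' ∈ D := D.mul_mem (D.mul_mem hψR hψW) (D.inv_mem hψR)
    rcases hx with rfl | rfl | rfl | rfl
    exacts [D.one_mem, hψW, hW'D, D.mul_mem hψW hW'D]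
  have hD : D = ⊤ := by
    refine Subgroup.eq_top_of_card_eq _ ?_
    have h60 := D.card_subgroup_dvd_card
    rw [A5Facts.card] at h60 ⊢
    have h12' : 12 ∣ Nat.card D := Nat.Coprime.mul_dvd_of_dvd_of_dvd (by norm_num : Nat.Coprime 3 4) h3 h4
    have hle := Nat.le_of_dvd (by norm_num) h60
    obtain ⟨k, hk⟩ := h12'
    rw [hk] at h60 h12 hle ⊢
    have hk5 : k ≤ 5 := by omega
    interval_cases k <;> first | omega | (exfalso; norm_num at h60)
  intro x
  have h := (show e x ∈ D from hD ▸ Subgroup.mem_top _)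
  have h' : e (φ x) = e x := by simpa [hψ] using (show ψ (e x) = e x from h)
  exact e.injective h'

end CfsgLib.J2Type
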