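import Mathlib

/-!
Counting tools for conjugation: orbits of a subgroup, fixed points of elements of prime power order,
small subgroups.
-/

set_option autoImplicit false

namespace CfsgLib.J2Type

variable {G : Type*} [Group G]

theorem mem_cent_iff {x y : G} : y ∈ Subgroup.centralizer ({x} : Set G) ↔ y * x = x * y :=
  Subgroup.mem_centralizer_singleton_iff

theorem conj_eq_self_iff {g x : G} : g * x * g⁻¹ = x ↔ g * x = x * g :=
  mul_inv_eq_iff_eq_mul

theorem orderOf_two_iff {x : G} : orderOf x = 2 ↔ x * x = 1 ∧ x ≠ 1 :=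
  ⟨fun h => ⟨by rw [← sq, ← h, pow_orderOf_eq_one], fun e => by simp [e] at h⟩,
   fun h => orderOf_eq_prime (by rw [sq, h.1]) h.2⟩

theorem inv_of_sq {x : G} (h : x * x = 1) : x⁻¹ = x := inv_eq_of_mul_eq_one_right h

theorem conj_sq {g x : G} (h : x * x = 1) : g * x * g⁻¹ * (g * x * g⁻¹) = 1 := by
  rw [show g * x * g⁻¹ * (g * x * g⁻¹) = g * (x * x) * g⁻¹ by group, h]; group

theorem conj_ne_one {g x : G} (h : x ≠ 1) : g * x * g⁻¹ ≠ 1 := fun e => h (by
  calc x = g⁻¹ * (g * x * g⁻¹) * g := by group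
    _ = 1 := by rw [e]; group)

/-- Orbit of an element under conjugation by a subgroup. -/
theorem conj_orbit_card_mul [Finite G] (H : Subgroup G) (a : G) :
    {b : G | ∃ h ∈ H, h * a * h⁻¹ = b}.ncard *
      Nat.card ↥(H ⊓ Subgroup.centralizer ({a} : Set G)) = Nat.card H := by
  letI act : MulAction ↥H G :=
    { smul := fun h x => (h : G) * x * (h : G)⁻¹
      one_smul := fun x => show (1 : G) * x * (1 : G)⁻¹ = x by simp
      mul_smul := fun h k x => show (h : G) * k * x * ((h : G) * k)⁻¹ =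
        (h : G) * ((k : G) * x * (k : G)⁻¹) * (h : G)⁻¹ by simp [mul_assoc] }
  have horb : MulAction.orbit ↥H a = {b : G | ∃ h ∈ H, h * a * h⁻¹ = b} := by
    ext b
    constructor
    · rintro ⟨h, rfl⟩; exact ⟨h, h.2, rfl⟩
    · rintro ⟨h, hh, rfl⟩; exact ⟨⟨h, hh⟩, rfl⟩
  have hst : (MulAction.stabilizer ↥H a).map H.subtype = H ⊓ Subgroup.centralizer ({a} : Set G) := by
    ext x
    constructor
    · rintro ⟨h, hh, rfl⟩
      exact ⟨h.2, mem_cent_iff.2 (conj_eq_self_iff.1 hh)⟩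
    · rintro ⟨hx, hc⟩
      exact ⟨⟨x, hx⟩, conj_eq_self_iff.2 (mem_cent_iff.1 hc), rfl⟩
  have h1 := (MulAction.stabilizer ↥H a).index_mul_card
  rw [MulAction.index_stabilizer, horb] at h1
  rw [← hst, Subgroup.card_map_of_injective H.subtype_injective]
  exact h1

/-- Fixed points of an element of prime power order on an invariant set. -/
theorem ncard_modEq_fixed [Finite G] {p : ℕ} [Fact p.Prime] {g : G} {k : ℕ}
    (hg : orderOf g = p ^ k) (S : Set G) (hS : ∀ x ∈ S, g * x * g⁻¹ ∈ S) :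
    S.ncard ≡ {x | x ∈ S ∧ g * x = x * g}.ncard [MOD p] := by
  have hS' : ∀ n : ℕ, ∀ x ∈ S, g ^ n * x * (g ^ n)⁻¹ ∈ S := by
    intro n
    induction n with
    | zero => intro x hx; simpa using hx
    | succ n ih =>
      intro x hx
      have := hS _ (ih x hx)
      rwa [show g * (g ^ n * x * (g ^ n)⁻¹) * g⁻¹ = g ^ (n + 1) * x * (g ^ (n + 1))⁻¹ by
        rw [pow_succ']; group] at this
  have hS'' : ∀ h ∈ Subgroup.zpowers g, ∀ x ∈ S, h * x * h⁻¹ ∈ S := by
    intro h hh x hx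
    classical
    obtain ⟨n, -, rfl⟩ := (mem_zpowers_iff_mem_range_orderOf.1 hh |> Finset.mem_image.1)
    exact hS' n x hx
  letI act : MulAction (Subgroup.zpowers g) S :=
    { smul := fun h x => ⟨(h : G) * x * (h : G)⁻¹, hS'' h h.2 x x.2⟩
      one_smul := fun x => Subtype.ext (show (1 : G) * x * (1 : G)⁻¹ = x by simp)
      mul_smul := fun h h' x => Subtype.ext (show (h : G) * h' * x * ((h : G) * h')⁻¹ =
        (h : G) * ((h' : G) * x * (h' : G)⁻¹) * (h : G)⁻¹ by simp [mul_assoc]) }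
  have hP : IsPGroup p (Subgroup.zpowers g) := IsPGroup.of_card (n := k) (by
    rw [Nat.card_zpowers, hg])
  have h := hP.card_modEq_card_fixedPoints S
  rw [Nat.card_coe_set_eq] at h
  refine h.trans (congrArg (· % p) ?_)
  rw [← Nat.card_coe_set_eq]
  refine Nat.card_congr
    { toFun := fun x => ⟨x.1.1, x.1.2, ?_⟩
      invFun := fun x => ⟨⟨x.1, x.2.1⟩, ?_⟩
      left_inv := fun _ => rfl
      right_inv := fun _ => rfl }
  · exact conj_eq_self_iff.1 (congrArg Subtype.val (x.2 ⟨g, Subgroup.mem_zpowers g⟩))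
  · rintro ⟨h, hh⟩
    obtain ⟨n, rfl⟩ := Subgroup.mem_zpowers_iff.mp hh
    apply Subtype.ext
    change g ^ n * x.1 * (g ^ n)⁻¹ = x.1
    have : Commute g x.1 := x.2.2
    exact conj_eq_self_iff.2 (this.zpow_left n).eq

/-- Centralizers of an element normalizing a subgroup, counted modulo the prime. -/
theorem card_cent_modEq [Finite G] {p : ℕ} [Fact p.Prime] {g : G} {k : ℕ}
    (hg : orderOf g = p ^ k) (A : Subgroup G) (hA : ∀ x ∈ A, g * x * g⁻¹ ∈ A) :
    Nat.card A ≡ Nat.card ↥(A ⊓ Subgroup.centralizer ({g} : Set G)) [MOD p] := by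
  have h := ncard_modEq_fixed hg (A : Set G) hA
  have e : {x | x ∈ (A : Set G) ∧ g * x = x * g} =
      ((A ⊓ Subgroup.centralizer ({g} : Set G) : Subgroup G) : Set G) := by
    ext x
    simp [mem_cent_iff, eq_comm]
  rw [e, ← Nat.card_coe_set_eq, ← Nat.card_coe_set_eq] at h
  exact h

/-- A finite set carrying a fixed-point-free involution has even size. -/
theorem even_ncard_of_involution {α : Type*} [Finite α] (S : Set α) (f : α → α)
    (hf : ∀ x ∈ S, f x ∈ S) (hff : ∀ x ∈ S, f (f x) = x) (hne : ∀ x ∈ S, f x ≠ x) :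
    Even S.ncard := by
  classical
  haveI := Fintype.ofFinite α
  have h : ∑ _x ∈ S.toFinset, (1 : ZMod 2) = 0 :=
    Finset.sum_involution (fun x _ => f x) (fun _ _ => by decide)
      (fun x hx _ => hne x (Set.mem_toFinset.1 hx))
      (fun x hx => Set.mem_toFinset.2 (hf x (Set.mem_toFinset.1 hx)))
      (fun x hx => hff x (Set.mem_toFinset.1 hx))
  rw [Finset.sum_const, nsmul_eq_mul, mul_one, ZMod.natCast_eq_zero_iff_even] at h
  rwa [Set.ncard_eq_toFinset_card']

/-- Four cosets of index four, named by two elements. -/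
theorem mem_four_cosets [Finite G] {A W : Subgroup G} (hWA : W ≤ A)
    (hcard : Nat.card A = 4 * Nat.card W) {a b : G} (ha : a ∈ A) (haW : a ∉ W) (hb : b ∈ A)
    (hbW : b ∉ W) (hab : a⁻¹ * b ∉ W) {x : G} (hx : x ∈ A) :
    x ∈ W ∨ a⁻¹ * x ∈ W ∨ b⁻¹ * x ∈ W ∨
      ((a * b)⁻¹ * x ∈ W ∨ a * b ∈ W ∨ a⁻¹ * (a * b) ∈ W ∨ b⁻¹ * (a * b) ∈ W) := by
  classical
  set W' := W.subgroupOf A with hW'
  have hidx : W'.index = 4 := by
    have h1 := W'.index_mul_card
    rw [Nat.card_congr (Subgroup.subgroupOfEquivOfLe hWA).toEquiv, hcard] at h1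
    exact Nat.eq_of_mul_eq_mul_right Nat.card_pos h1
  let mk : ↥A → ↥A ⧸ W' := QuotientGroup.mk
  by_contra hcon
  push Not at hcon
  obtain ⟨h1, h2, h3, h4, h5, h6, h7⟩ := hcon
  have key : ∀ {p q : G} (hp : p ∈ A) (hq : q ∈ A), p⁻¹ * q ∉ W → mk ⟨p, hp⟩ ≠ mk ⟨q, hq⟩ :=
    fun {p q} hp hq h e => h
      (Subgroup.mem_subgroupOf.1 ((QuotientGroup.eq (s := W') (a := ⟨p, hp⟩) (b := ⟨q, hq⟩)).1 e))
  haveI := Fintype.ofFinite (↥A ⧸ W')
  have hle : ({mk ⟨1, A.one_mem⟩, mk ⟨a, ha⟩, mk ⟨b, hb⟩, mk ⟨a * b, A.mul_mem ha hb⟩, mk ⟨x, hx⟩} :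
      Finset (↥A ⧸ W')).card ≤ 4 := by
    rw [← hidx, Subgroup.index_eq_card, Nat.card_eq_fintype_card]
    exact Finset.card_le_univ _
  rw [Finset.card_insert_of_notMem, Finset.card_insert_of_notMem, Finset.card_insert_of_notMem,
    Finset.card_insert_of_notMem, Finset.card_singleton] at hle
  · omega
  all_goals simp only [Finset.mem_insert, Finset.mem_singleton, not_or]
  · exact key _ _ h4
  · exact ⟨key _ _ h7, key _ _ h3⟩
  · exact ⟨key _ _ hab, key _ _ h6, key _ _ h2⟩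
  · exact ⟨key _ _ (by simpa using haW), key _ _ (by simpa using hbW),
      key _ _ (by simpa using h5), key _ _ (by simpa using h1)⟩

/-- Cosets in the case of an elementary quotient. -/
theorem mem_four [Finite G] {A W : Subgroup G} (hWA : W ≤ A)
    (hcard : Nat.card A = 4 * Nat.card W) (hsq : ∀ x ∈ A, x * x ∈ W)
    (hn : ∀ x ∈ A, ∀ w ∈ W, x * w * x⁻¹ ∈ W) {a b : G} (ha : a ∈ A) (haW : a ∉ W) (hb : b ∈ A)
    (hbW : b ∉ W) (hab : a⁻¹ * b ∉ W) {x : G} (hx : x ∈ A) :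
    x ∈ W ∨ a⁻¹ * x ∈ W ∨ b⁻¹ * x ∈ W ∨ (a * b)⁻¹ * x ∈ W := by
  rcases mem_four_cosets hWA hcard ha haW hb hbW hab hx with h | h | h | h | h | h | h
  · exact Or.inl h
  · exact Or.inr (Or.inl h)
  · exact Or.inr (Or.inr (Or.inl h))
  · exact Or.inr (Or.inr (Or.inr h))
  · refine absurd ?_ hab
    rw [show a⁻¹ * b = (a * a)⁻¹ * (a * b) by group]
    exact W.mul_mem (W.inv_mem (hsq a ha)) h
  · rw [inv_mul_cancel_left] at h
    exact absurd h hbW
  · refine absurd ?_ haW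
    have := hn b hb _ h
    rwa [show b * (b⁻¹ * (a * b)) * b⁻¹ = a by group] at this

end CfsgLib.J2Type
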