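import Mathlib
import Cfsg.Agent.Eq.Def_Transfer
import Cfsg.Agent.LargeExtraspecial.Simple
import Cfsg.Agent.InvolChar.Extraspecial32
import Cfsg.Agent.J2Type.Util
import Cfsg.Agent.J2Type.Alt5

/-!
An involution `z` whose centralizer is an extension of an extraspecial group `Q` of order 32 by the
alternating group of degree five.
-/

set_option autoImplicit false

namespace CfsgLib.J2Type

open Cfsg

variable {G : Type*} [Group G] [Finite G]

/-- The centralizer of `z` maps onto the alternating group of degree five with kernel `Q`. -/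
structure Setup (z : G) (Q : Subgroup G) (img : G → A5) : Prop where
  setting : LargeExtraspecial.Setting Q z
  card_Q : Nat.card Q = 32
  mul : ∀ a b, a * z = z * a → b * z = z * b → img (a * b) = img a * img b
  surj : ∀ y, ∃ a, a * z = z * a ∧ img a = y
  ker : ∀ a, a * z = z * a → (img a = 1 ↔ a ∈ Q)

/-- The non-central involutions of `Q`. -/
def noncentral (z : G) (Q : Subgroup G) : Set G := {q | q ∈ Q ∧ q * q = 1 ∧ q ≠ 1 ∧ q ≠ z}

/-- The elements of `Q` fixed by `c` modulo the centre. -/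
def fixMod (z : G) (Q : Subgroup G) (c : G) : Set G :=
  {q | q ∈ Q ∧ (c * q * c⁻¹ = q ∨ c * q * c⁻¹ = z * q)}

namespace Setup

variable {z : G} {Q : Subgroup G} {img : G → A5} (h : Setup z Q img)
include h

theorem z_sq : z * z = 1 := h.setting.z_mul_z

theorem z_ne : z ≠ 1 := h.setting.z_ne_one

theorem z_mem : z ∈ Q := h.setting.z_mem

theorem comm_Q {q : G} (hq : q ∈ Q) : q * z = z * q := h.setting.comm hq

theorem comm_inv {a : G} (ha : a * z = z * a) : a⁻¹ * z = z * a⁻¹ :=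
  (Commute.inv_left (show Commute a z from ha)).eq

theorem comm_mul {a b : G} (ha : a * z = z * a) (hb : b * z = z * b) : a * b * z = z * (a * b) :=
  (Commute.mul_left (show Commute a z from ha) (show Commute b z from hb)).eq

theorem comm_pow {a : G} (ha : a * z = z * a) (n : ℕ) : a ^ n * z = z * a ^ n :=
  (Commute.pow_left (show Commute a z from ha) n).eq

theorem conj_mem {c q : G} (hc : c * z = z * c) (hq : q ∈ Q) : c * q * c⁻¹ ∈ Q :=
  (h.setting.normalized c hc q).1 hq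

theorem img_one : img 1 = 1 := (h.ker 1 (by simp)).2 Q.one_mem

theorem img_inv {a : G} (ha : a * z = z * a) : img a⁻¹ = (img a)⁻¹ := by
  refine eq_inv_of_mul_eq_one_left ?_
  rw [← h.mul _ _ (h.comm_inv ha) ha, inv_mul_cancel, h.img_one]

theorem img_pow {a : G} (ha : a * z = z * a) (n : ℕ) : img (a ^ n) = img a ^ n := by
  induction n with
  | zero => simp [h.img_one]
  | succ n ih => rw [pow_succ, h.mul _ _ (h.comm_pow ha n) ha, ih, pow_succ]

theorem img_conj {a b : G} (ha : a * z = z * a) (hb : b * z = z * b) :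
    img (a * b * a⁻¹) = img a * img b * (img a)⁻¹ := by
  rw [h.mul _ _ (h.comm_mul ha hb) (h.comm_inv ha), h.mul _ _ ha hb, h.img_inv ha]

/-- The homomorphism given by `img`. -/
theorem exists_hom : ∃ φ : ↥(Subgroup.centralizer ({z} : Set G)) →* A5,
    Function.Surjective φ ∧ (∀ c, φ c = img c) ∧ φ.ker = Q.subgroupOf _ := by
  refine ⟨MonoidHom.mk' (fun c => img c) fun a b => h.mul _ _ (mem_cent_iff.1 a.2) (mem_cent_iff.1 b.2),
    fun y => ?_, fun c => rfl, ?_⟩
  · obtain ⟨a, ha, rfl⟩ := h.surj y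
    exact ⟨⟨a, mem_cent_iff.2 ha⟩, rfl⟩
  · ext c
    exact h.ker c (mem_cent_iff.1 c.2)

theorem Q_le : Q ≤ Subgroup.centralizer ({z} : Set G) := fun _ hq => mem_cent_iff.2 (h.comm_Q hq)

/-- The order of a subgroup of the centralizer from its kernel and image. -/
theorem card_sub (H : Subgroup G) (hH : ∀ x ∈ H, x * z = z * x) :
    ∃ T : Subgroup A5, (∀ y, y ∈ T ↔ ∃ x ∈ H, img x = y) ∧
      Nat.card ↥(H ⊓ Q) * Nat.card T = Nat.card H := by
  let φ : ↥H →* A5 := MonoidHom.mk' (fun x => img x) fun a b => h.mul _ _ (hH a a.2) (hH b b.2)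
  refine ⟨φ.range, fun y => ⟨fun ⟨x, hx⟩ => ⟨x, x.2, hx⟩, fun ⟨x, hx, e⟩ => ⟨⟨x, hx⟩, e⟩⟩, ?_⟩
  have h1 := φ.ker.card_mul_index
  rw [Subgroup.index_ker] at h1
  rw [← h1, ← Subgroup.card_map_of_injective (f := H.subtype) (K := φ.ker) H.subtype_injective]
  refine congrArg (fun K : Subgroup G => Nat.card K * Nat.card φ.range) ?_
  ext x
  constructor
  · rintro ⟨hx, hq⟩
    exact ⟨⟨x, hx⟩, (h.ker x (hH x hx)).2 hq, rfl⟩
  · rintro ⟨a, ha, rfl⟩
    exact ⟨a.2, (h.ker a (hH a a.2)).1 ha⟩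

theorem card_cent : Nat.card ↥(Subgroup.centralizer ({z} : Set G)) = 1920 := by
  obtain ⟨φ, hs, -, hk⟩ := h.exists_hom
  have h1 := φ.ker.card_mul_index
  rw [Subgroup.index_ker, MonoidHom.range_eq_top.2 hs, Subgroup.card_top, A5Facts.card, hk,
    Nat.card_congr (Subgroup.subgroupOfEquivOfLe h.Q_le).toEquiv, h.card_Q] at h1
  omega

theorem central_two : InvolChar.CentralTwo (⟨z, h.z_mem⟩ : ↥Q) :=
  InvolChar.centralTwo_of_extraspecial h.setting.extraspecial
    (Subgroup.mem_center_iff.2 fun g => Subtype.ext (h.comm_Q g.2))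
    fun e => h.z_ne (congrArg Subtype.val e)

theorem sq_cases {q : G} (hq : q ∈ Q) : q * q = 1 ∨ q * q = z := by
  rcases h.central_two.mul_self_eq ⟨q, hq⟩ with e | e
  · exact Or.inl (congrArg Subtype.val e)
  · exact Or.inr (congrArg Subtype.val e)

theorem skew {a b : G} (ha : a ∈ Q) (hb : b ∈ Q) : a * b = b * a ∨ a * b = b * a * z := by
  rcases h.central_two.skew ⟨a, ha⟩ ⟨b, hb⟩ with e | e
  · exact Or.inl (congrArg Subtype.val e)
  · exact Or.inr (congrArg Subtype.val e)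

theorem conj_cases {a b : G} (ha : a ∈ Q) (hb : b ∈ Q) :
    a * b * a⁻¹ = b ∨ a * b * a⁻¹ = z * b := by
  rcases h.skew ha hb with e | e
  · exact Or.inl (conj_eq_self_iff.2 e)
  · right
    rw [mul_inv_eq_iff_eq_mul, e, mul_assoc z b a, ← h.comm_Q (Q.mul_mem hb ha)]

theorem pow_four {q : G} (hq : q ∈ Q) : q ^ 4 = 1 := by
  rw [show (4 : ℕ) = 2 * 2 from rfl, pow_mul, sq, sq]
  rcases h.sq_cases hq with e | e <;> rw [e]
  · simp
  · exact h.z_sq

theorem eq_of_commutes_all {q : G} (hq : q ∈ Q) (hall : ∀ p ∈ Q, q * p = p * q) : q = 1 ∨ q = z :=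
  (h.setting.mem_iff q).1 (LargeExtraspecial.mem_zOf.2 ⟨hq, fun p hp => (hall p hp).symm⟩)

theorem eq_of_centralizes {c : G} (hall : ∀ p ∈ Q, c * p = p * c) : c = 1 ∨ c = z := by
  refine (h.setting.mem_iff c).1 ?_
  rw [← h.setting.centralizer_eq]
  exact Subgroup.mem_centralizer_iff.2 fun p hp => (hall p hp).symm

/-- An element that is not an involution does not centralize `Q`. -/
theorem not_centralizes {c : G} (hc2 : c * c ≠ 1) : ¬ ∀ p ∈ Q, c * p = p * c := fun hall => by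
  rcases h.eq_of_centralizes hall with rfl | rfl
  · exact hc2 (one_mul 1)
  · exact hc2 h.z_sq

theorem card_fixed_dvd (c : G) : Nat.card ↥(Q ⊓ Subgroup.centralizer ({c} : Set G)) ∣ 2 ^ 5 := by
  have := Subgroup.card_dvd_of_le (inf_le_left : Q ⊓ Subgroup.centralizer ({c} : Set G) ≤ Q)
  rwa [h.card_Q] at this

theorem centralizes_of_card {c : G}
    (hc : Nat.card ↥(Q ⊓ Subgroup.centralizer ({c} : Set G)) = 32) : ∀ p ∈ Q, c * p = p * c := by
  have e := Subgroup.eq_of_le_of_card_ge (inf_le_left : Q ⊓ Subgroup.centralizer ({c} : Set G) ≤ Q)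
    (by rw [hc, h.card_Q])
  intro p hp
  rw [← e] at hp
  exact (mem_cent_iff.1 hp.2).symm

theorem five_fixed {c : G} (hc : c * z = z * c) (ho : orderOf c = 5) :
    ∀ q ∈ Q, c * q = q * c → q = 1 ∨ q = z := by
  haveI : Fact (Nat.Prime 5) := ⟨by norm_num⟩
  set F := Q ⊓ Subgroup.centralizer ({c} : Set G) with hF
  have hmod := card_cent_modEq (k := 1) (p := 5) (by rw [ho]; rfl) Q fun x hx => h.conj_mem hc hx
  rw [h.card_Q, ← hF] at hmod
  obtain ⟨i, hi, he⟩ := (Nat.dvd_prime_pow Nat.prime_two).1 (h.card_fixed_dvd c)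
  rw [← hF] at he
  rw [he] at hmod
  have hne : i ≠ 5 := by
    rintro rfl
    refine h.not_centralizes ?_ (h.centralizes_of_card (by rw [← hF, he]; rfl))
    intro e
    have := orderOf_dvd_of_pow_eq_one (show c ^ 2 = 1 by rw [sq, e])
    rw [ho] at this
    norm_num at this
  have hi1 : i = 1 := by interval_cases i <;> simp_all [Nat.ModEq]
  subst hi1
  intro q hq hcq
  by_contra hcon
  push Not at hcon
  have h3 : ({1, z, q} : Set G).ncard ≤ 2 := by
    rw [pow_one] at he
    rw [← he, ← SetLike.coe_sort_coe, Nat.card_coe_set_eq]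
    refine Set.ncard_le_ncard ?_ (Set.toFinite _)
    intro x hx
    simp only [Set.mem_insert_iff, Set.mem_singleton_iff] at hx
    rcases hx with rfl | rfl | rfl
    · exact F.one_mem
    · exact ⟨h.z_mem, mem_cent_iff.2 hc.symm⟩
    · exact ⟨hq, mem_cent_iff.2 hcq.symm⟩
  rw [Set.ncard_insert_of_notMem (by simp [h.z_ne.symm, hcon.1.symm]),
    Set.ncard_pair hcon.2.symm] at h3
  omega

theorem exists_five : ∃ c, c * z = z * c ∧ orderOf c = 5 := by
  haveI : Fact (Nat.Prime 5) := ⟨by norm_num⟩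
  obtain ⟨c, hc⟩ := exists_prime_orderOf_dvd_card' (G := ↥(Subgroup.centralizer ({z} : Set G))) 5
    (by rw [h.card_cent]; norm_num)
  exact ⟨c, mem_cent_iff.1 c.2, by rw [Subgroup.orderOf_coe, hc]⟩

theorem five_fixed_img {c : G} (hc : c * z = z * c) (h5 : img c ^ 5 = 1) (h1 : img c ≠ 1) :
    ∀ q ∈ Q, c * q = q * c → q = 1 ∨ q = z := by
  intro q hq hcq
  haveI : Fact (Nat.Prime 5) := ⟨by norm_num⟩
  refine h.five_fixed (h.comm_pow hc 4) ?_ q hq (Commute.pow_left (show Commute c q from hcq) 4).eq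
  refine orderOf_eq_prime ?_ ?_
  · have hq5 : c ^ 5 ∈ Q := (h.ker _ (h.comm_pow hc 5)).1 (by rw [h.img_pow hc, h5])
    rw [← pow_mul, mul_comm, pow_mul]
    exact h.pow_four hq5
  · intro e
    apply h1
    have := congrArg img e
    rw [h.img_pow hc, h.img_one] at this
    calc img c = img c ^ 5 * ((img c) ^ 4)⁻¹ := by group
      _ = 1 := by rw [h5, this]; simp

theorem conj_noncentral {c q : G} (hc : c * z = z * c) (hq : q ∈ noncentral z Q) :
    c * q * c⁻¹ ∈ noncentral z Q := by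
  refine ⟨h.conj_mem hc hq.1, conj_sq hq.2.1, conj_ne_one hq.2.2.1, fun e => hq.2.2.2 ?_⟩
  calc q = c⁻¹ * (c * q * c⁻¹) * c := by group
    _ = z := by rw [e, mul_assoc, ← hc, inv_mul_cancel_left]

theorem noncentral_eq : {x : G | x ∈ Q ∧ x * x = 1} = insert 1 (insert z (noncentral z Q)) := by
  ext x
  constructor
  · rintro ⟨hx, hxx⟩
    by_cases h1 : x = 1
    · exact Or.inl h1
    by_cases h2 : x = z
    · exact Or.inr (Or.inl h2)
    exact Or.inr (Or.inr ⟨hx, hxx, h1, h2⟩)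
  · rintro (rfl | rfl | hx)
    · exact ⟨Q.one_mem, one_mul 1⟩
    · exact ⟨h.z_mem, h.z_sq⟩
    · exact ⟨hx.1, hx.2.1⟩

theorem count_sq :
    ∃ (_ : Fintype ↥Q) (_ : DecidableEq ↥Q), Fintype.card ↥Q = 32 ∧
      (Finset.univ.filter fun x : ↥Q => x * x = 1).card = 12 ∧ (noncentral z Q).ncard = 10 := by
  classical
  haveI : Fact (Nat.Prime 5) := ⟨by norm_num⟩
  haveI := Fintype.ofFinite ↥Q
  refine ⟨inferInstance, inferInstance, ?_⟩
  have h32 : Fintype.card ↥Q = 32 := by rw [← Nat.card_eq_fintype_card, h.card_Q]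
  refine ⟨h32, ?_⟩
  have hn : (Finset.univ.filter fun x : ↥Q => x * x = 1).card = (noncentral z Q).ncard + 2 := by
    have e : {x : G | x ∈ Q ∧ x * x = 1}.ncard =
        (Finset.univ.filter fun x : ↥Q => x * x = 1).card := by
      rw [← Nat.card_coe_set_eq, ← Fintype.card_subtype, ← Nat.card_eq_fintype_card]
      exact Nat.card_congr
        { toFun := fun x => ⟨⟨x.1, x.2.1⟩, Subtype.ext x.2.2⟩
          invFun := fun x => ⟨x.1.1, x.1.2, congrArg Subtype.val x.2⟩
          left_inv := fun _ => rfl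
          right_inv := fun _ => rfl }
    rw [← e, h.noncentral_eq, Set.ncard_insert_of_notMem, Set.ncard_insert_of_notMem]
    · exact fun hz => hz.2.2.2 rfl
    · rintro (e | hx)
      · exact h.z_ne e.symm
      · exact hx.2.2.1 rfl
  obtain ⟨c, hc, hco⟩ := h.exists_five
  have hmod := ncard_modEq_fixed (k := 1) (p := 5) (by rw [hco]; rfl) (noncentral z Q)
    fun x hx => h.conj_noncentral hc hx
  rw [show {x | x ∈ noncentral z Q ∧ c * x = x * c} = ∅ from Set.eq_empty_iff_forall_notMem.2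
    fun x hx => (h.five_fixed hc hco x hx.1.1 hx.2).elim hx.1.2.2.1 hx.1.2.2.2, Set.ncard_empty] at hmod
  rcases h.central_two.count_sq_one h32 with e | e
  · exact ⟨e, by omega⟩
  · exfalso
    rw [e] at hn
    rw [show (noncentral z Q).ncard = 18 by omega] at hmod
    simp [Nat.ModEq] at hmod

theorem card_noncentral : (noncentral z Q).ncard = 10 := by
  obtain ⟨_, _, -, -, e⟩ := h.count_sq
  exact e

/-- There is no elementary abelian subgroup of order eight. -/
theorem eq_of_commute {a b : G} (ha : a ∈ noncentral z Q) (hb : b ∈ noncentral z Q)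
    (hab : a * b = b * a) : b = a ∨ b = z * a := by
  obtain ⟨_, _, h32, h12, -⟩ := h.count_sq
  have ne' : ∀ {x : G} (hx : x ∈ Q) {y : G} (hy : y ∈ Q), x ≠ y → (⟨x, hx⟩ : ↥Q) ≠ ⟨y, hy⟩ :=
    fun _ _ _ hne e => hne (congrArg Subtype.val e)
  rcases h.central_two.mul_eq_central_of_commute h32 h12 (u := ⟨a, ha.1⟩) (w := ⟨b, hb.1⟩)
    (Subtype.ext ha.2.1) (Subtype.ext hb.2.1) (ne' _ Q.one_mem ha.2.2.1)
    (ne' _ h.z_mem ha.2.2.2) (ne' _ Q.one_mem hb.2.2.1) (ne' _ h.z_mem hb.2.2.2)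
    (Subtype.ext hab) with e | e
  · exact Or.inl (congrArg Subtype.val e).symm
  · right
    have e' : a * b = z := congrArg Subtype.val e
    calc b = a * (a * b) := by rw [← mul_assoc, ha.2.1, one_mul]
      _ = z * a := by rw [e', h.comm_Q ha.1]

theorem zmul_noncentral {a : G} (ha : a ∈ noncentral z Q) : z * a ∈ noncentral z Q := by
  refine ⟨Q.mul_mem h.z_mem ha.1, ?_, fun e => ha.2.2.2 ?_, fun e => ha.2.2.1 (mul_eq_left.1 e)⟩
  · calc z * a * (z * a) = z * (a * z) * a := by group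
      _ = z * z * (a * a) := by rw [h.comm_Q ha.1]; group
      _ = 1 := by rw [h.z_sq, ha.2.1, one_mul]
  · rw [← inv_of_sq h.z_sq, eq_inv_of_mul_eq_one_right e]

theorem exists_swap {a : G} (ha : a ∈ Q) (h1 : a ≠ 1) (h2 : a ≠ z) :
    ∃ q ∈ Q, q * a * q⁻¹ = z * a :=
  LargeExtraspecial.exists_conj_eq_mul h.setting.extraspecial h.setting.mem_iff ha
    (h.setting.not_mem_zOf h1 h2)

theorem card_cent_Q {a : G} (ha : a ∈ noncentral z Q) :
    Nat.card ↥(Q ⊓ Subgroup.centralizer ({a} : Set G)) = 16 := by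
  have horb : {b : G | ∃ q ∈ Q, q * a * q⁻¹ = b} = {a, z * a} := by
    ext b
    constructor
    · rintro ⟨q, hq, rfl⟩
      rcases h.conj_cases hq ha.1 with e | e <;> simp [e]
    · rintro (rfl | rfl)
      · exact ⟨1, Q.one_mem, by simp⟩
      · exact h.exists_swap ha.1 ha.2.2.1 ha.2.2.2
  have h1 := conj_orbit_card_mul Q a
  rw [horb, Set.ncard_pair (fun e => h.z_ne (mul_eq_right.1 e.symm)), h.card_Q] at h1
  omega

theorem transitive {a b : G} (ha : a ∈ noncentral z Q) (hb : b ∈ noncentral z Q) :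
    ∃ c, c * z = z * c ∧ c * a * c⁻¹ = b := by
  haveI : Fact (Nat.Prime 5) := ⟨by norm_num⟩
  set O := {x : G | ∃ c ∈ Subgroup.centralizer ({z} : Set G), c * a * c⁻¹ = x} with hO
  have hsub : O ⊆ noncentral z Q := by
    rintro x ⟨c, hc, rfl⟩
    exact h.conj_noncentral (mem_cent_iff.1 hc) ha
  have heven : Even O.ncard := by
    refine even_ncard_of_involution O (fun x => z * x) ?_ (fun x _ => by
      show z * (z * x) = x; rw [← mul_assoc, h.z_sq, one_mul])
      (fun x _ e => h.z_ne (mul_eq_right.1 e))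
    rintro x ⟨c, hc, rfl⟩
    have hx := h.conj_noncentral (mem_cent_iff.1 hc) ha
    obtain ⟨q, hq, e⟩ := h.exists_swap hx.1 hx.2.2.1 hx.2.2.2
    refine ⟨q * c, mul_mem (h.Q_le hq) hc, ?_⟩
    rw [← e]; group
  obtain ⟨c, hc, hco⟩ := h.exists_five
  have hclosed : ∀ x ∈ O, c * x * c⁻¹ ∈ O := by
    rintro x ⟨d, hd, rfl⟩
    exact ⟨c * d, mul_mem (mem_cent_iff.2 hc) hd, by group⟩
  have hmod := ncard_modEq_fixed (k := 1) (p := 5) (by rw [hco]; rfl) O hclosed
  rw [show {x | x ∈ O ∧ c * x = x * c} = ∅ from Set.eq_empty_iff_forall_notMem.2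
    fun x hx => (h.five_fixed hc hco x (hsub hx.1).1 hx.2).elim (hsub hx.1).2.2.1 (hsub hx.1).2.2.2,
    Set.ncard_empty] at hmod
  have hle := Set.ncard_le_ncard hsub
  rw [h.card_noncentral] at hle
  have hpos : 0 < O.ncard :=
    (Set.ncard_pos).2 ⟨a, 1, one_mem _, by simp⟩
  obtain ⟨m, hm⟩ := heven
  have h10 : O.ncard = 10 := by
    unfold Nat.ModEq at hmod
    omega
  have heq : O = noncentral z Q :=
    Set.eq_of_subset_of_ncard_le hsub (by rw [h10, h.card_noncentral])
  rw [← heq] at hb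
  obtain ⟨d, hd, e⟩ := hb
  exact ⟨d, mem_cent_iff.1 hd, e⟩

theorem card_stab {a : G} (ha : a ∈ noncentral z Q) :
    Nat.card ↥(Subgroup.centralizer ({z} : Set G) ⊓ Subgroup.centralizer ({a} : Set G)) = 192 := by
  have horb : {b : G | ∃ c ∈ Subgroup.centralizer ({z} : Set G), c * a * c⁻¹ = b} =
      noncentral z Q := by
    ext b
    constructor
    · rintro ⟨c, hc, rfl⟩; exact h.conj_noncentral (mem_cent_iff.1 hc) ha
    · intro hb
      obtain ⟨c, hc, e⟩ := h.transitive ha hb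
      exact ⟨c, mem_cent_iff.2 hc, e⟩
  have h1 := conj_orbit_card_mul (Subgroup.centralizer ({z} : Set G)) a
  rw [horb, h.card_noncentral, h.card_cent] at h1
  omega

/-- An element mapping to an involution fixes at most eight elements of `Q` modulo the centre. -/
theorem card_fixMod_le {c : G} (hc : c * z = z * c) (h2 : img c * img c = 1) (h1 : img c ≠ 1) :
    (fixMod z Q c).ncard ≤ 8 := by
  have hzc : ∀ {q d : G}, d * z = z * d → d * (z * q) * d⁻¹ = z * (d * q * d⁻¹) := by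
    intro q d hd
    rw [← mul_assoc, hd]; group
  have mkF : ∀ d, d * z = z * d → ∃ F : Subgroup G, (F : Set G) = fixMod z Q d := by
    intro d hd
    refine ⟨{ carrier := fixMod z Q d, one_mem' := ⟨Q.one_mem, Or.inl (by simp)⟩,
              mul_mem' := ?_, inv_mem' := ?_ }, rfl⟩
    · rintro p q ⟨hp, hp'⟩ ⟨hq, hq'⟩
      refine ⟨Q.mul_mem hp hq, ?_⟩
      have e : d * (p * q) * d⁻¹ = (d * p * d⁻¹) * (d * q * d⁻¹) := by group
      have hpz := h.comm_Q hp
      rcases hp' with e1 | e1 <;> rcases hq' with e2 | e2 <;> rw [e, e1, e2]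
      · exact Or.inl rfl
      · exact Or.inr (by rw [← mul_assoc, hpz, mul_assoc])
      · exact Or.inr (mul_assoc _ _ _)
      · refine Or.inl ?_
        calc z * p * (z * q) = z * (p * z) * q := by group
          _ = z * z * (p * q) := by rw [hpz]; group
          _ = p * q := by rw [h.z_sq, one_mul]
    · rintro p ⟨hp, hp'⟩
      refine ⟨Q.inv_mem hp, ?_⟩
      have e : d * p⁻¹ * d⁻¹ = (d * p * d⁻¹)⁻¹ := by group
      rcases hp' with e1 | e1 <;> rw [e, e1]
      · exact Or.inl rfl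
      · exact Or.inr (by rw [mul_inv_rev, inv_of_sq h.z_sq, h.comm_Q (Q.inv_mem hp)])
  obtain ⟨g₀, hg5, hg1⟩ := A5Facts.invol_pair_five (img c) h2 h1
  obtain ⟨g, hg, rfl⟩ := h.surj g₀
  set d := g * c * g⁻¹ with hd
  have hdz : d * z = z * d := h.comm_mul (h.comm_mul hg hc) (h.comm_inv hg)
  have key1 : ∀ y, c * (g⁻¹ * y * g) * c⁻¹ = g⁻¹ * (d * y * d⁻¹) * g := fun y => by rw [hd]; group
  have key2 : ∀ y, d * (g * y * g⁻¹) * d⁻¹ = g * (c * y * c⁻¹) * g⁻¹ := fun y => by rw [hd]; group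
  obtain ⟨F, hF⟩ := mkF c hc
  obtain ⟨F', hF'⟩ := mkF d hdz
  have hcard : Nat.card F' = Nat.card F := by
    rw [← SetLike.coe_sort_coe, ← SetLike.coe_sort_coe, hF, hF']
    refine Nat.card_congr
      { toFun := fun x => ⟨g⁻¹ * x.1 * g, ?_, ?_⟩
        invFun := fun x => ⟨g * x.1 * g⁻¹, h.conj_mem hg x.2.1, ?_⟩
        left_inv := fun x => Subtype.ext (by group)
        right_inv := fun x => Subtype.ext (by group) }
    · simpa using h.conj_mem (h.comm_inv hg) x.2.1
    · have hgi : g⁻¹ * z = z * g⁻¹ := h.comm_inv hg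
      rcases x.2.2 with e | e
      · left
        calc c * (g⁻¹ * x.1 * g) * c⁻¹ = g⁻¹ * (d * x.1 * d⁻¹) * g := key1 x.1
          _ = _ := by rw [e]
      · right
        calc c * (g⁻¹ * x.1 * g) * c⁻¹ = g⁻¹ * (d * x.1 * d⁻¹) * g := key1 x.1
          _ = g⁻¹ * z * x.1 * g := by rw [e]; group
          _ = _ := by rw [hgi]; group
    · rcases x.2.2 with e | e
      · left
        calc d * (g * x.1 * g⁻¹) * d⁻¹ = g * (c * x.1 * c⁻¹) * g⁻¹ := key2 x.1
          _ = _ := by rw [e]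
      · right
        calc d * (g * x.1 * g⁻¹) * d⁻¹ = g * (c * x.1 * c⁻¹) * g⁻¹ := key2 x.1
          _ = g * z * x.1 * g⁻¹ := by rw [e]; group
          _ = _ := by rw [hg]; group
  have hFQ : F ≤ Q := fun x hx => ((hF ▸ hx : x ∈ fixMod z Q c)).1
  have hF'Q : F' ≤ Q := fun x hx => ((hF' ▸ hx : x ∈ fixMod z Q d)).1
  have hdiv := Subgroup.card_dvd_of_le hFQ
  rw [h.card_Q, show (32 : ℕ) = 2 ^ 5 by norm_num] at hdiv
  obtain ⟨i, hi, he⟩ := (Nat.dvd_prime_pow Nat.prime_two).1 hdiv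
  have hn : (fixMod z Q c).ncard = 2 ^ i := by
    rw [← hF, ← Nat.card_coe_set_eq]; exact he
  rw [hn]
  by_contra hcon
  have h16 : 16 ≤ 2 ^ i := by interval_cases i <;> simp_all
  have hI : ∀ x ∈ F ⊓ F', x = 1 ∨ x = z := by
    rintro x ⟨hxF, hxF'⟩
    have hx1 : x ∈ fixMod z Q c := hF ▸ hxF
    have hx2 : x ∈ fixMod z Q d := hF' ▸ hxF'
    have hcd := h.comm_mul hc hdz
    have he2 : (c * d) * (c * d) * x = x * ((c * d) * (c * d)) := by
      refine conj_eq_self_iff.1 ?_
      have e1 : (c * d) * x * (c * d)⁻¹ = x ∨ (c * d) * x * (c * d)⁻¹ = z * x := by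
        have e : (c * d) * x * (c * d)⁻¹ = c * (d * x * d⁻¹) * c⁻¹ := by group
        rcases hx2.2 with e2 | e2 <;> rw [e, e2]
        · exact hx1.2
        · rw [hzc hc]
          rcases hx1.2 with e3 | e3 <;> rw [e3]
          · exact Or.inr rfl
          · exact Or.inl (by rw [← mul_assoc, h.z_sq, one_mul])
      have e : c * d * (c * d) * x * (c * d * (c * d))⁻¹ =
          (c * d) * ((c * d) * x * (c * d)⁻¹) * (c * d)⁻¹ := by group
      rcases e1 with e1 | e1
      · rw [e, e1, e1]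
      · rw [e, e1, hzc hcd, e1, ← mul_assoc, h.z_sq, one_mul]
    refine h.five_fixed_img (h.comm_mul hcd hcd) ?_ ?_ x hx1.1 he2
    · rw [h.mul _ _ hcd hcd, h.mul _ _ hc hdz, h.img_conj hg hc, ← sq, ← pow_mul, mul_comm,
        pow_mul, hg5, one_pow]
    · rw [h.mul _ _ hcd hcd, h.mul _ _ hc hdz, h.img_conj hg hc]
      intro e
      apply hg1
      generalize img c * (img g * img c * (img g)⁻¹) = p at hg5 e ⊢
      calc p = p ^ 5 * (p * p * (p * p))⁻¹ := by group
        _ = 1 := by rw [hg5, e]; simp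
  -- the two fixed groups would meet in too much
  have hle : Nat.card ↥(F ⊓ F') ≤ 2 := by
    rw [← SetLike.coe_sort_coe, Nat.card_coe_set_eq, ← Set.ncard_pair h.z_ne.symm]
    exact Set.ncard_le_ncard (fun x hx => by simpa using hI x hx) (Set.toFinite _)
  have hprod : Nat.card F * Nat.card F' ≤ Nat.card Q * Nat.card ↥(F ⊓ F') := by
    have h1 := Subgroup.relIndex_inf_mul_relIndex (H := F) (K := F') (L := Q)
    have h2 : Nat.card ↥(F ⊓ F') * (F ⊓ F').relIndex F = Nat.card F := by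
      rw [← Subgroup.relIndex_bot_left, ← Subgroup.relIndex_bot_left]
      exact Subgroup.relIndex_mul_relIndex _ _ _ bot_le inf_le_left
    have h3 : (F ⊓ F').relIndex F ≤ F'.relIndex Q := by
      rw [Subgroup.inf_relIndex_left]
      exact Subgroup.relIndex_le_of_le_right hFQ Subgroup.index_ne_zero_of_finite
    have h4 : Nat.card F' * F'.relIndex Q = Nat.card Q := by
      rw [← Subgroup.relIndex_bot_left, ← Subgroup.relIndex_bot_left]
      exact Subgroup.relIndex_mul_relIndex _ _ _ bot_le hF'Q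
    calc Nat.card F * Nat.card F' = Nat.card ↥(F ⊓ F') * (F ⊓ F').relIndex F * Nat.card F' := by
          rw [h2]
      _ ≤ Nat.card ↥(F ⊓ F') * F'.relIndex Q * Nat.card F' :=
          Nat.mul_le_mul_right _ (Nat.mul_le_mul_left _ h3)
      _ = Nat.card Q * Nat.card ↥(F ⊓ F') := by rw [← h4]; ring
  rw [hcard, he, h.card_Q] at hprod
  nlinarith [hprod, hle, h16]

end Setup

end CfsgLib.J2Type
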